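import Cfsg.Agent.Lib.RankThreeMcL.Model

/-!
Two automorphisms of the point stabiliser: one given by a permutation of the near orbit, on which the
stabiliser is faithful, and one by a permutation of all points.
-/

set_option autoImplicit false
set_option maxRecDepth 100000
set_option Elab.async false
set_option linter.style.haveILetI false

namespace CfsgLib.RankThreeMcL

open Cfsg CfsgLib.RankThreeRecog MulAction
open CfsgLib.SporRecognition.CosetCert (allBelow allBelow_spec field)

/-- Indices of tables in the stabiliser. -/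
def inKp (i : ℕ) : Bool := Nat.ble 7 i && Nat.blt i 210

theorem inKp_ok : ((List.range 210).all fun i => !(inKp i) || kKnown.contains i) = true := by decide +kernel

theorem inKp_mem {i : ℕ} (h : inKp i = true) : gperm i ∈ Kp := by
  refine kKnown_mem i ?_
  have hi : i < 210 := by
    simp only [inKp, Bool.and_eq_true, Nat.blt_eq] at h
    exact h.2
  simpa [h] using List.all_eq_true.1 inKp_ok i (List.mem_range.2 hi)

/-! ### The action on the near orbit -/

theorem near_inv {g : Equiv.Perm (Fin 275)} (hg : g ∈ Kp) (x : Fin 275) :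
    Nat.testBit Data.nearMask (g x : Fin 275) = Nat.testBit Data.nearMask x := by
  have key : ∀ g ∈ Kp, ∀ y : Fin 275, y ∈ maskSet Data.nearMask → g y ∈ maskSet Data.nearMask := by
    intro g hg y hy
    rw [← orbit_b0] at hy ⊢
    obtain ⟨t, rfl⟩ := hy
    exact ⟨⟨g, hg⟩ * t, rfl⟩
  rw [Bool.eq_iff_iff]
  refine ⟨fun h => ?_, key g hg x⟩
  have := key g⁻¹ (inv_mem hg) (g x) h
  rw [Equiv.Perm.inv_def, Equiv.symm_apply_apply] at this
  exact this

/-- The action on the near orbit, other points fixed. -/
noncomputable def resFun (g : Equiv.Perm (Fin 275)) (x : Fin 275) : Fin 275 :=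
  if Nat.testBit Data.nearMask x then g x else x

theorem resFun_mul {g h : Equiv.Perm (Fin 275)} (hh : h ∈ Kp) (x : Fin 275) :
    resFun (g * h) x = resFun g (resFun h x) := by
  by_cases hx : Nat.testBit Data.nearMask x = true
  · simp [resFun, hx, near_inv hh]
  · simp [resFun, hx]

theorem resFun_one (x : Fin 275) : resFun 1 x = x := by simp [resFun]

/-- The restriction to the near orbit. -/
noncomputable def resB : Kp →* Equiv.Perm (Fin 275) where
  toFun g :=
    { toFun := resFun g
      invFun := resFun (g⁻¹ : Kp)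
      left_inv := fun x => by
        rw [← resFun_mul g.2, ← Subgroup.coe_mul, inv_mul_cancel, Subgroup.coe_one, resFun_one]
      right_inv := fun x => by
        rw [← resFun_mul (g⁻¹ : Kp).2, ← Subgroup.coe_mul, mul_inv_cancel, Subgroup.coe_one, resFun_one] }
  map_one' := Equiv.ext fun x => resFun_one x
  map_mul' g h := Equiv.ext fun x => resFun_mul h.2 x

theorem resB_apply_near (g : Kp) {x : Fin 275} (hx : Nat.testBit Data.nearMask x = true) :
    resB g x = (g : Equiv.Perm (Fin 275)) x := if_pos hx

/-- The tables cut down to the near orbit. -/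
noncomputable def tblB (i u : ℕ) : ℕ := bif inKp i && Nat.testBit Data.nearMask u then tblT i u else u

/-- The permutations of the cut down tables. -/
noncomputable def gpermB (i : ℕ) : Equiv.Perm (Fin 275) :=
  if h : inKp i = true then resB ⟨gperm i, inKp_mem h⟩ else 1

theorem describesB : Describes tblB gpermB := by
  intro i u
  by_cases h : inKp i = true
  · rw [gpermB, dif_pos h]
    change ((resFun (gperm i) u : Fin 275) : ℕ) = _
    by_cases hu : Nat.testBit Data.nearMask u = true
    · simp [resFun, tblB, h, hu, describes i u]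
    · simp [resFun, tblB, h, hu]
  · rw [gpermB, dif_neg h]
    simp [tblB, h]

theorem tblB_lt (i u : ℕ) (hu : u < 275) : tblB i u < 275 := by
  have h := describesB i ⟨u, hu⟩
  exact h ▸ Fin.isLt _

theorem gpermB_mem {i : ℕ} (h : inKp i = true) : gpermB i ∈ resB.range := by
  rw [gpermB, dif_pos h]
  exact ⟨_, rfl⟩

/-- All letters are tables of the stabiliser. -/
def wordInK (w : List ℕ) : Bool := w.all inKp

theorem wperm_mem_Kp {w : List ℕ} (h : wordInK w = true) : wperm gperm w ∈ Kp :=
  wperm_mem fun i hi => inKp_mem (List.all_eq_true.1 h i hi)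

theorem resB_wperm : ∀ {w : List ℕ} (h : wordInK w = true),
    resB ⟨wperm gperm w, wperm_mem_Kp h⟩ = wperm gpermB w
  | [], _ => map_one resB
  | i :: w, h => by
    have hi : inKp i = true := List.all_eq_true.1 h i (List.mem_cons_self ..)
    have hw : wordInK w = true := List.all_eq_true.2 fun j hj => List.all_eq_true.1 h j (List.mem_cons_of_mem _ hj)
    change resB (⟨gperm i, inKp_mem hi⟩ * ⟨wperm gperm w, wperm_mem_Kp hw⟩) = gpermB i * wperm gpermB w
    rw [map_mul, resB_wperm hw, gpermB, dif_pos hi]

theorem kChainB_ok : (chainOK tblB 275 (cnvLv Data.kChain) [] Data.kOrbs &&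
    ((cnvLv Data.kChain).all fun l => l.2.1.all wordInK) && Nat.beq Data.kOrbs.prod 3265920) = true := by
  decide +kernel

theorem natCard_resB : Nat.card resB.range = 3265920 := by
  refine le_antisymm ?_ ?_
  · rw [← natCard_Kp]
    exact Nat.card_le_card_of_surjective _ resB.rangeRestrict_surjective
  have h := kChainB_ok
  simp only [Bool.and_eq_true, List.all_eq_true, wordInK] at h
  rw [← Nat.eq_of_beq_eq_true h.2]
  exact chain_spec describesB tblB_lt _ _ _ _ h.1.1 fun l hl w hw _ =>
    wperm_mem fun i hi => gpermB_mem (h.1.2 l hl w hw i hi)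

theorem resB_injective : Function.Injective resB := by
  have h : Function.Bijective resB.rangeRestrict :=
    (Nat.bijective_iff_surjective_and_card _).2
      ⟨resB.rangeRestrict_surjective, by rw [natCard_Kp, natCard_resB]⟩
  exact fun x y e => h.1 (Subtype.ext e)

theorem eq_of_eqOn_near {g h : Equiv.Perm (Fin 275)} (hg : g ∈ Kp) (hh : h ∈ Kp)
    (e : ∀ x : Fin 275, Nat.testBit Data.nearMask x = true → g x = h x) : g = h := by
  have : resB ⟨g, hg⟩ = resB ⟨h, hh⟩ := Equiv.ext fun x => by
    change resFun g x = resFun h x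
    by_cases hx : Nat.testBit Data.nearMask x = true
    · simp [resFun, hx, e x hx]
    · simp [resFun, hx]
  exact congrArg Subtype.val (resB_injective this)

/-! ### Permutations from tables -/

/-- Two tables are inverse permutations. -/
noncomputable def permOk (f g : ℕ) : Bool :=
  allBelow 9 275 fun u => Nat.blt (field f 9 u) 275 && Nat.blt (field g 9 u) 275 &&
    Nat.beq (field g 9 (field f 9 u)) u && Nat.beq (field f 9 (field g 9 u)) u

/-- The permutation of a table. -/
noncomputable def mkPerm {f g : ℕ} (h : permOk f g = true) : Equiv.Perm (Fin 275) where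
  toFun u := ⟨field f 9 u, by
    have := allBelow_spec h u u.2
    simp only [Bool.and_eq_true, Nat.blt_eq] at this
    exact this.1.1.1⟩
  invFun u := ⟨field g 9 u, by
    have := allBelow_spec h u u.2
    simp only [Bool.and_eq_true, Nat.blt_eq] at this
    exact this.1.1.2⟩
  left_inv u := by
    have := allBelow_spec h u u.2
    simp only [Bool.and_eq_true] at this
    exact Fin.ext (Nat.eq_of_beq_eq_true this.1.2)
  right_inv u := by
    have := allBelow_spec h u u.2
    simp only [Bool.and_eq_true] at this
    exact Fin.ext (Nat.eq_of_beq_eq_true this.2)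

theorem mkPerm_val {f g : ℕ} (h : permOk f g = true) (u : Fin 275) :
    ((mkPerm h u : Fin 275) : ℕ) = field f 9 u := rfl

/-- A permutation carries the generators to given words. -/
noncomputable def conjOk (T : ℕ → ℕ → ℕ) (f : ℕ) (words : List (List ℕ)) : Bool :=
  Nat.beq words.length 3 && (words.all wordInK) && (List.range 3).all fun j =>
    allBelow 9 275 fun u => Nat.beq (field f 9 (T (Data.kGens.getD j 0) u)) (ev T (words.getD j []) (field f 9 u))

theorem conjOk_spec {T : ℕ → ℕ → ℕ} {σ : ℕ → Equiv.Perm (Fin 275)} (hT : Describes T σ) {f g : ℕ}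
    (h : permOk f g = true) {words : List (List ℕ)} (hw : conjOk T f words = true) :
    ∀ i ∈ Data.kGens, ∃ w ∈ words, wordInK w = true ∧ mkPerm h * σ i * (mkPerm h)⁻¹ = wperm σ w := by
  intro i hi
  simp only [conjOk, Bool.and_eq_true, List.all_eq_true, List.mem_range] at hw
  obtain ⟨⟨hlen, hin⟩, hall⟩ := hw
  obtain ⟨j, hj, rfl⟩ := List.getElem_of_mem hi
  have hj3 : j < 3 := hj
  have hjw : j < words.length := by rw [Nat.eq_of_beq_eq_true hlen]; exact hj3
  refine ⟨words[j], List.getElem_mem _, hin _ (List.getElem_mem _), ?_⟩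
  rw [mul_inv_eq_iff_eq_mul]
  refine Equiv.ext fun u => Fin.ext ?_
  have he := Nat.eq_of_beq_eq_true (allBelow_spec (hall j hj3) u u.2)
  rw [List.getD_eq_getElem _ _ hjw, List.getD_eq_getElem _ _ hj] at he
  rw [Equiv.Perm.mul_apply, Equiv.Perm.mul_apply, mkPerm_val, hT, ev_eq hT, mkPerm_val]
  exact he

/-! ### The automorphism on the near orbit -/

theorem alphaPerm_ok : permOk Data.alphaB Data.alphaInv = true := by decide +kernel

theorem alphaConj_ok : conjOk tblB Data.alphaB Data.alphaWords = true := by decide +kernel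

/-- The permutation of the near orbit. -/
noncomputable def alphaPerm : Equiv.Perm (Fin 275) := mkPerm alphaPerm_ok

theorem resB_range_map : resB.range.map (MulAut.conj alphaPerm).toMonoidHom = resB.range := by
  refine Subgroup.eq_of_le_of_card_ge ?_ (le_of_eq
    (Nat.card_congr (resB.range.equivMapOfInjective _ (MulAut.conj alphaPerm).injective).toEquiv))
  rintro _ ⟨_, ⟨g, rfl⟩, rfl⟩
  have hg : (g : Equiv.Perm (Fin 275)) ∈ kSpan := by rw [kSpan_eq]; exact g.2
  have hle : kSpan ≤
      ((resB.range.comap (MulAut.conj alphaPerm).toMonoidHom).comap resB).map Kp.subtype := by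
    rw [kSpan, Subgroup.closure_le]
    rintro _ ⟨i, hi, rfl⟩
    obtain ⟨w, -, hw, e⟩ := conjOk_spec describesB alphaPerm_ok alphaConj_ok i hi
    have hik : inKp i = true := List.all_eq_true.1 (show Data.kGens.all inKp = true by decide) i hi
    refine ⟨⟨gperm i, inKp_mem hik⟩, ⟨⟨_, wperm_mem_Kp hw⟩, ?_⟩, rfl⟩
    rw [resB_wperm hw, ← e, gpermB, dif_pos hik]
    rfl
  obtain ⟨g', h', e⟩ := hle hg
  obtain rfl : g' = g := Subtype.ext e
  exact h'

/-- The stabiliser on the near orbit. -/
noncomputable def equivB : Kp ≃* resB.range := MonoidHom.ofInjective resB_injective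

/-- The automorphism of the stabiliser. -/
noncomputable def alpha : Kp ≃* Kp :=
  ((equivB.trans (resB.range.equivMapOfInjective _ (MulAut.conj alphaPerm).injective)).trans
    (MulEquiv.subgroupCongr resB_range_map)).trans equivB.symm

theorem resB_alpha (g : Kp) : resB (alpha g) = alphaPerm * resB g * alphaPerm⁻¹ := by
  have h : equivB (alpha g) = MulEquiv.subgroupCongr resB_range_map
      (resB.range.equivMapOfInjective _ (MulAut.conj alphaPerm).injective (equivB g)) :=
    equivB.apply_symm_apply _
  exact congrArg Subtype.val h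

/-- The image of an element under the automorphism, checked on the near orbit. -/
theorem alpha_eq {g m : Equiv.Perm (Fin 275)} (hg : g ∈ Kp) (hm : m ∈ Kp)
    (h : resB ⟨m, hm⟩ * alphaPerm = alphaPerm * resB ⟨g, hg⟩) : alpha ⟨g, hg⟩ = ⟨m, hm⟩ := by
  refine resB_injective ?_
  rw [resB_alpha, ← h, mul_inv_cancel_right]

/-! ### The automorphism from all points -/

theorem sigmaPerm_ok : permOk Data.sigma Data.sigmaInv = true := by decide +kernel

theorem sigmaConj_ok : conjOk tblT Data.sigma Data.sigmaWords = true := by decide +kernel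

/-- The permutation of all points. -/
noncomputable def sigmaPerm : Equiv.Perm (Fin 275) := mkPerm sigmaPerm_ok

/-- The neighbours of the far point in the near orbit. -/
def halfMask : ℕ := 0x3ace3af4b23c5a757112201000044408090000000480000042000800000a000000000

theorem sigma_points : (Nat.beq (field Data.sigma 9 0) 0 && Nat.beq (field Data.sigma 9 1) 1 &&
    allBelow 9 275 fun u => !(Nat.testBit Data.nearMask u) ||
      (Nat.testBit Data.nearMask (field Data.sigma 9 u) &&
        (xor (Nat.testBit halfMask (field Data.sigma 9 u)) (Nat.testBit halfMask u)))) = true := by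
  decide +kernel

theorem sigma_a0 : sigmaPerm a0 = a0 := by
  have h := sigma_points
  simp only [Bool.and_eq_true] at h
  exact Fin.ext (Nat.eq_of_beq_eq_true h.1.1)

theorem sigma_c0 : sigmaPerm c0 = c0 := by
  have h := sigma_points
  simp only [Bool.and_eq_true] at h
  exact Fin.ext (Nat.eq_of_beq_eq_true h.1.2)

/-- The permutation keeps the near orbit and exchanges the two halves in it. -/
theorem sigma_swap {x : Fin 275} (hx : Nat.testBit Data.nearMask x = true) :
    Nat.testBit Data.nearMask (sigmaPerm x : Fin 275) = true ∧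
      (Nat.testBit halfMask (sigmaPerm x : Fin 275) = true ↔ ¬ Nat.testBit halfMask x = true) := by
  have h := sigma_points
  simp only [Bool.and_eq_true] at h
  have h2 := allBelow_spec h.2 x x.2
  rw [hx] at h2
  simp only [Bool.not_true, Bool.false_or, Bool.and_eq_true] at h2
  rw [sigmaPerm, mkPerm_val]
  refine ⟨h2.1, ?_⟩
  have := h2.2
  generalize Nat.testBit halfMask x = p at this ⊢
  generalize Nat.testBit halfMask (field Data.sigma 9 x) = q at this ⊢
  cases p <;> cases q <;> simp_all

theorem Kp_map_sigma : Kp.map (MulAut.conj sigmaPerm).toMonoidHom = Kp := by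
  refine Subgroup.eq_of_le_of_card_ge ?_ (le_of_eq
    (Nat.card_congr (Kp.equivMapOfInjective _ (MulAut.conj sigmaPerm).injective).toEquiv))
  conv_lhs => rw [← kSpan_eq, kSpan, MonoidHom.map_closure]
  rw [Subgroup.closure_le]
  rintro _ ⟨_, ⟨i, hi, rfl⟩, rfl⟩
  obtain ⟨w, -, hw, e⟩ := conjOk_spec describes sigmaPerm_ok sigmaConj_ok i hi
  rw [MulEquiv.coe_toMonoidHom, MulAut.conj_apply]
  change mkPerm sigmaPerm_ok * gperm i * (mkPerm sigmaPerm_ok)⁻¹ ∈ Kp
  rw [e]
  exact wperm_mem_Kp hw

/-- The conjugation by the permutation of all points. -/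
noncomputable def beta : Kp ≃* Kp :=
  (Kp.equivMapOfInjective _ (MulAut.conj sigmaPerm).injective).trans (MulEquiv.subgroupCongr Kp_map_sigma)

theorem beta_apply (g : Kp) :
    ((beta g : Kp) : Equiv.Perm (Fin 275)) = sigmaPerm * (g : Equiv.Perm (Fin 275)) * sigmaPerm⁻¹ := rfl

end CfsgLib.RankThreeMcL
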