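import Cfsg.Agent.Lib.RankThreeMcL.Graph

/-!
Assembly: a rank three group on 275 points with matching stabiliser actions, whose neighbours of the
far point in the first suborbit are the right half, is the McLaughlin group.
-/

set_option autoImplicit false

namespace CfsgLib.RankThreeMcL

open MulAction RankThreeRecog


universe v'

theorem nonempty_iso_mclS {W : Type v'} [Fintype W] [DecidableEq W] (G : Subgroup (Equiv.Perm W)) (a b c : W)
    (hG : Sub G a b c 275 112 162)
    (φ : stabilizer mclS a0 ≃* stabilizer G a) (ψ : Fin 275 ≃ W) (ha : ψ a0 = a) (hb : ψ b0 = b)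
    (hc : ψ c0 = c) (hψ : ∀ (s : stabilizer mclS a0) (x : Fin 275), ψ (s • x) = φ s • ψ x)
    (hne : ψ ⁻¹' farNear G a b c ≠ maskSet GraphData.cbMask0) : Nonempty (G ≃* mclS) := by
  have hS : Sub mclS (0 : Fin 275) 25 1 275 112 162 := sub_mcl
  have hcard : Nat.card (stabilizer mclS (0 : Fin 275)) = 3265920 := natCard_stab
  refine nonempty_iso_of_edge mclS 0 25 1 G a b c hS hG φ ψ hψ
    (edge_iff' φ (nearNear_unique hS) (farFar_unique hS) hS hG ψ ha hb hc hψ fun hA1 => ?_)
    ((card_stab_relAut hS).trans (by rw [hcard])) ?_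
  · obtain ⟨p1, p2, p3⟩ := farNear_pre φ hS hG ψ hb hc hψ hA1
    have h56 : (farNear mclS (0 : Fin 275) 25 1).ncard = 56 := by
      rw [farNear_eq hS, ncard_maskSet, counts.2.2.2.2.2.1]
    refine Eq.trans ?_ (farNear_eq hS).symm
    exact (farNear_cases hS p1 p2 (p3.trans h56)).resolve_right hne
  · simp

/-- The neighbours of the far point in the first suborbit of the model. -/
theorem farNear_mclS : farNear mclS a0 b0 c0 = maskSet GraphData.cbMask1 :=
  farNear_eq (hS := sub_mcl)

end CfsgLib.RankThreeMcL
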