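import Cfsg.Agent.Lib.RankThreeMcL.StabB
import Cfsg.Agent.Lib.RankThreeMcL.Alpha

/-!
Subgroups of index 162 of the point stabiliser fix a point of the far orbit, possibly after applying the
automorphism coming from the near orbit.
-/

set_option autoImplicit false
set_option maxRecDepth 100000
set_option Elab.async false
set_option linter.style.haveILetI false

namespace CfsgLib.RankThreeMcL

open Cfsg CfsgLib.RankThreeRecog MulAction
open CfsgLib.SporRecognition.CosetCert (allBelow allBelow_spec field)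
open scoped Pointwise

/-! ### General facts -/

theorem stabIn_card_far {c : Fin 275} (hc : c ∈ maskSet Data.farMask) : Nat.card (stabIn Kp c) = 20160 := by
  have ho : orbit Kp c = maskSet Data.farMask := by
    rw [← orbit_c0] at hc ⊢
    exact orbit_eq_iff.2 hc
  have h := ncard_orbit_mul_stabIn Kp c
  rw [ho, ncard_far, natCard_Kp] at h
  change 162 * Nat.card (stabIn Kp c) = _ at h
  omega

/-- The order of the stabiliser of the near point in a subgroup of order 20160. -/
theorem card_stabIn_near {J : Subgroup (Equiv.Perm (Fin 275))} (hJ : J ≤ Kp) (hc : Nat.card J = 20160) :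
    Nat.card (stabIn J b0) = 180 ∨ Nat.card (stabIn J b0) = 360 := by
  have hb : b0 ∈ maskSet Data.nearMask := orbit_b0 ▸ mem_orbit_self b0
  have h := ncard_orbit_mul_stabIn J b0
  rw [hc] at h
  have hn : (orbit J b0).ncard ≤ 112 := ncard_near ▸ Set.ncard_le_ncard (orbit_subset_near hJ hb)
  have h1 : Nat.card (stabIn J b0) ∣ 20160 := Dvd.intro_left _ h
  have h2 : Nat.card (stabIn J b0) ∣ 29160 :=
    natCard_Kb ▸ Subgroup.card_dvd_of_le (show stabIn J b0 ≤ Kb from fun g hg => ⟨hJ hg.1, hg.2⟩)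
  have h3 : Nat.card (stabIn J b0) ∣ 360 := (show Nat.gcd 20160 29160 = 360 by norm_num) ▸ Nat.dvd_gcd h1 h2
  have h4 : 180 ≤ Nat.card (stabIn J b0) := by nlinarith
  obtain ⟨m, hm⟩ := h3
  have hm1 : m = 1 ∨ m = 2 := by
    rcases Nat.lt_or_ge m 3 with hlt | hge
    · rcases Nat.eq_zero_or_pos m with rfl | hpos
      · omega
      · omega
    · nlinarith
  rcases hm1 with rfl | rfl <;> omega

section Normalised

variable {J : Subgroup (Equiv.Perm (Fin 275))}

/-- A word in the given words. -/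
def inWords (gens : List (List ℕ)) : ℕ → List ℕ → Bool
  | 0, w => w.isEmpty
  | n + 1, w => w.isEmpty || gens.any fun g => g.isPrefixOf w && inWords gens n (w.drop g.length)

theorem inWords_mem {gens : List (List ℕ)} {L : Subgroup (Equiv.Perm (Fin 275))}
    (hL : ∀ w ∈ gens, wperm gperm w ∈ L) :
    ∀ (n : ℕ) (w : List ℕ), inWords gens n w = true → wperm gperm w ∈ L
  | 0, w, h => by
    rw [inWords, List.isEmpty_iff] at h
    subst h
    exact one_mem L
  | n + 1, w, h => by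
    rw [inWords, Bool.or_eq_true, List.isEmpty_iff, List.any_eq_true] at h
    rcases h with rfl | ⟨g, hg, h⟩
    · exact one_mem L
    · rw [Bool.and_eq_true, List.isPrefixOf_iff_prefix] at h
      obtain ⟨rest, rfl⟩ := h.1
      rw [List.drop_left] at h
      rw [wperm_append]
      exact mul_mem (hL g hg) (inWords_mem hL n rest h.2)

/-- The chain uses only words in the given words. -/
def chainWords (gens : List (List ℕ)) (ls : List Level) : Bool :=
  ls.all fun l => l.2.1.all fun w => inWords gens w.length w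

theorem chain_le {gens : List (List ℕ)} {ls : List Level} {ns : List ℕ}
    {L : Subgroup (Equiv.Perm (Fin 275))} (hL : ∀ w ∈ gens, wperm gperm w ∈ L)
    (hc : chainOK tblT 275 ls [] ns = true) (hw : chainWords gens ls = true) : ns.prod ≤ Nat.card L := by
  simp only [chainWords, List.all_eq_true] at hw
  exact chain_spec describes tblT_lt _ _ _ _ hc fun l hl w hlw _ => inWords_mem hL _ w (hw l hl w hlw)

theorem stabIn_le_Kb (hJ : J ≤ Kp) : stabIn J b0 ≤ Kb := fun _ hg => ⟨hJ hg.1, hg.2⟩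

theorem inf_eSub_eq_bot (hJ : J ≤ Kp) (hc : Nat.card J = 20160) (hx : x5p ∈ stabIn J b0) :
    stabIn J b0 ⊓ eSub = ⊥ := by
  haveI : Fact (Nat.Prime 5) := ⟨by norm_num⟩
  set Y := stabIn J b0
  set S := Y ⊓ eSub
  have hY : Nat.card Y ∣ 360 := by
    rcases card_stabIn_near hJ hc with e | e <;> rw [e] <;> norm_num
  have hd1 : Nat.card S ∣ 360 := (Subgroup.card_dvd_of_le inf_le_left).trans hY
  have hd2 : Nat.card S ∣ 81 := natCard_eSub ▸ Subgroup.card_dvd_of_le inf_le_right
  have hd : Nat.card S ∣ 9 := (show Nat.gcd 360 81 = 9 by norm_num) ▸ Nat.dvd_gcd hd1 hd2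
  have hconj : ∀ g ∈ Subgroup.zpowers x5p, ∀ e ∈ S, g * e * g⁻¹ ∈ S := fun g hg e he =>
    have hgY : g ∈ Y := Subgroup.zpowers_le.2 hx hg
    Subgroup.mem_inf.2 ⟨mul_mem (mul_mem hgY he.1) (inv_mem hgY), conj_mem_eSub (stabIn_le_Kb hJ hgY) he.2⟩
  letI : MulAction (Subgroup.zpowers x5p) S :=
    { smul := fun g e => ⟨g.1 * e.1 * g.1⁻¹, hconj g g.2 e e.2⟩
      one_smul := fun e => Subtype.ext (show (1 : Equiv.Perm (Fin 275)) * e.1 * 1⁻¹ = e.1 by group)
      mul_smul := fun g h e => Subtype.ext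
        (show g.1 * h.1 * e.1 * (g.1 * h.1)⁻¹ = g.1 * (h.1 * e.1 * h.1⁻¹) * g.1⁻¹ by group) }
  have hmod := isPGroup_x5p.card_modEq_card_fixedPoints S
  have hfix : Nat.card (fixedPoints (Subgroup.zpowers x5p) S) = 1 := by
    rw [Nat.card_eq_one_iff_unique]
    refine ⟨⟨fun e f => ?_⟩, ⟨⟨1, fun g => Subtype.ext (show g.1 * 1 * g.1⁻¹ = 1 by group)⟩⟩⟩
    have key : ∀ e : fixedPoints (Subgroup.zpowers x5p) S, (e : S).1 = 1 := fun e => by
      refine x5p_fpf (e : S).2.2 ?_
      have h1 : x5p * (e : S).1 * x5p⁻¹ = (e : S).1 :=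
        congrArg Subtype.val (e.2 ⟨x5p, Subgroup.mem_zpowers _⟩)
      exact mul_inv_eq_iff_eq_mul.1 h1
    exact Subtype.ext (Subtype.ext ((key e).trans (key f).symm))
  rw [hfix] at hmod
  rw [Subgroup.eq_bot_iff_card]
  have hle := Nat.le_of_dvd (by norm_num) hd
  have hmod' : Nat.card S % 5 = 1 := hmod
  obtain ⟨m, hm⟩ := hd
  interval_cases hS : Nat.card S <;> omega

theorem sup_eSub (hJ : J ≤ Kp) (hc : Nat.card J = 20160) (hx : x5p ∈ stabIn J b0) :
    Nat.card (stabIn J b0) * 81 ≤ Nat.card ↥(stabIn J b0 ⊔ eSub) ∧ stabIn J b0 ⊔ eSub ≤ Kb ∧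
      ((stabIn J b0 ⊔ eSub : Subgroup (Equiv.Perm (Fin 275))) : Set (Equiv.Perm (Fin 275))) =
        (stabIn J b0 : Set (Equiv.Perm (Fin 275))) * eSub ∧
      ((stabIn J b0 ⊔ eSub : Subgroup (Equiv.Perm (Fin 275))) : Set (Equiv.Perm (Fin 275))) =
        (eSub : Set (Equiv.Perm (Fin 275))) * stabIn J b0 := by
  have hn := (stabIn_le_Kb hJ).trans Kb_le_normalizer
  refine ⟨?_, sup_le (stabIn_le_Kb hJ) eSub_le, Subgroup.coe_mul_of_left_le_normalizer_right _ _ hn, ?_⟩
  · have h := inf_relIndex_le (A := stabIn J b0 ⊔ eSub) (H := stabIn J b0) (K := eSub) le_sup_left le_sup_right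
    rwa [inf_eSub_eq_bot hJ hc hx, Subgroup.card_bot, natCard_eSub, mul_one] at h
  · rw [sup_comm]
    exact Subgroup.coe_mul_of_right_le_normalizer_left _ _ hn

theorem y0Checks : (inKb Data.y0 && wordEq [Data.y0, Data.y0, Data.y0] []) = true := by decide +kernel

theorem exists_y0 (hJ : J ≤ Kp) (hc : Nat.card J = 20160) (hx : x5p ∈ stabIn J b0) :
    ∃ k < 81, wperm gperm [Data.y0, eIdx k] ∈ stabIn J b0 := by
  obtain ⟨hcard, hle, hmul, -⟩ := sup_eSub hJ hc hx
  set A := stabIn J b0 ⊔ eSub with hA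
  have h0 := y0Checks
  simp only [Bool.and_eq_true] at h0
  have hy : gperm Data.y0 ∈ Kb := inKb_mem h0.1
  have hpow : gperm Data.y0 * gperm Data.y0 * gperm Data.y0 = 1 := by
    have := wordEq_spec h0.2
    simpa [wperm, mul_assoc] using this
  have hbig : 14580 ≤ Nat.card A := by
    rcases card_stabIn_near hJ hc with e | e <;> rw [e] at hcard <;> omega
  have hidx : (A.subgroupOf Kb).index = 1 ∨ (A.subgroupOf Kb).index = 2 := by
    have h := Subgroup.card_mul_index (A.subgroupOf Kb)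
    rw [Nat.card_congr (Subgroup.subgroupOfEquivOfLe hle).toEquiv, natCard_Kb] at h
    have hpos : 0 < (A.subgroupOf Kb).index := Nat.pos_of_ne_zero fun e => by rw [e] at h; omega
    have : (A.subgroupOf Kb).index ≤ 2 := by nlinarith
    omega
  have hmem : gperm Data.y0 ∈ A := by
    rcases hidx with e | e
    · have := Subgroup.index_eq_one.1 e
      exact (show (⟨_, hy⟩ : Kb) ∈ A.subgroupOf Kb from this ▸ Subgroup.mem_top _)
    · have h2 := Subgroup.mul_self_mem_of_index_two e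
        ((⟨_, hy⟩ : Kb) * (⟨_, hy⟩ : Kb))
      have h3 : gperm Data.y0 * gperm Data.y0 * (gperm Data.y0 * gperm Data.y0) ∈ A := h2
      rwa [← mul_assoc, hpow, one_mul] at h3
  rw [← SetLike.mem_coe, hA, hmul] at hmem
  obtain ⟨y, hy', e, he, hye⟩ := hmem
  obtain ⟨k, hk, hek⟩ := mem_eSub.1 (inv_mem he)
  refine ⟨k, hk, ?_⟩
  have : wperm gperm [Data.y0, eIdx k] = y := by
    rw [show wperm gperm [Data.y0, eIdx k] = gperm Data.y0 * gperm (eIdx k) by simp [wperm], ← hek, ← hye,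
      mul_inv_cancel_right]
  rw [this]
  exact hy'

/-- The letters of a relator. -/
noncomputable def relWord (k : ℕ) (r : List ℕ) : List ℕ :=
  (r.map fun l => if l = 0 then [Data.x5] else if l = 1 then List.replicate 4 Data.x5
    else if l = 2 then [Data.y0, eIdx k] else [Data.y0, eIdx k, Data.y0, eIdx k]).flatten

/-- A relator lands outside the identity in the normal subgroup. -/
noncomputable def killOk (p : ℕ × ℕ × ℕ) : Bool :=
  let w := relWord p.1 (Data.rels.getD p.2.1 [])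
  Nat.blt p.2.2 275 && !(Nat.beq (ev tblT w p.2.2) p.2.2) &&
    (List.range 81).any fun l => wordEq w [eIdx l]

theorem kills_ok : Data.xKills.all killOk = true := by decide +kernel

theorem kill_absurd (hJ : J ≤ Kp) (hc : Nat.card J = 20160) (hx : x5p ∈ stabIn J b0) {k : ℕ}
    (hy : wperm gperm [Data.y0, eIdx k] ∈ stabIn J b0) {p : ℕ × ℕ × ℕ} (hp : p ∈ Data.xKills)
    (hpk : p.1 = k) : False := by
  have h := List.all_eq_true.1 kills_ok p hp
  simp only [killOk, Bool.and_eq_true, Nat.blt_eq, List.any_eq_true, List.mem_range, Bool.not_eq_true'] at h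
  obtain ⟨⟨hlt, hmove⟩, l, hl, he⟩ := h
  rw [hpk] at hmove he
  set w := relWord k (Data.rels.getD p.2.1 [])
  have hwY : wperm gperm w ∈ stabIn J b0 := by
    rw [show w = relWord k (Data.rels.getD p.2.1 []) from rfl, relWord, wperm_flatten]
    refine list_prod_mem fun g hg => ?_
    simp only [List.map_map, List.mem_map] at hg
    obtain ⟨r, -, rfl⟩ := hg
    have hx' : wperm gperm [Data.x5] ∈ stabIn J b0 := by rw [wperm_singleton]; exact hx
    simp only [Function.comp]
    split_ifs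
    · exact hx'
    · exact wperm_mem fun i hi => by rw [List.eq_of_mem_replicate hi]; exact hx
    · exact hy
    · rw [show [Data.y0, eIdx k, Data.y0, eIdx k] = [Data.y0, eIdx k] ++ [Data.y0, eIdx k] from rfl,
        wperm_append]
      exact mul_mem hy hy
  have hbot : wperm gperm w ∈ stabIn J b0 ⊓ eSub :=
    ⟨hwY, by rw [wordEq_spec he, wperm_singleton]; exact eIdx_mem hl⟩
  rw [inf_eSub_eq_bot hJ hc hx, Subgroup.mem_bot] at hbot
  have := ev_eq describes w ⟨p.2.2, hlt⟩
  rw [hbot, Equiv.Perm.one_apply] at this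
  change p.2.2 = ev tblT w p.2.2 at this
  rw [← this, Nat.beq_refl] at hmove
  exact Bool.noConfusion hmove

/-- The generators of a case. -/
noncomputable def xGens (k : ℕ) : List (List ℕ) := [[Data.x5], [Data.y0, eIdx k]]

/-- The near orbit without its first point. -/
def restMask : ℕ := Nat.xor Data.nearMask (Nat.shiftLeft 1 25)

/-- A case: the chain bound, the parts, and the selections of total size 55. -/
noncomputable def xCaseOk (k : ℕ) (ch : List (ℕ × List (List ℕ) × List (ℕ × ℕ × ℕ))) (orbs : List ℕ)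
    (parts : List (ℕ × ℕ × List (ℕ × ℕ × ℕ))) (sel : Option ℕ) : Bool :=
  chainOK tblT 275 (cnvLv ch) [] orbs && chainWords (xGens k) (cnvLv ch) && Nat.beq orbs.prod 360 &&
    partsCover tblT (xGens k) parts restMask &&
    (List.range (2 ^ parts.length)).all fun s =>
      !(Nat.beq (maskCount 275 (selMask tblT (xGens k) parts s)) 55) || (sel == some s)

theorem restMask_ok : (allBelow 9 275 fun u => Nat.testBit restMask u ==
    (Nat.testBit Data.nearMask u && !(Nat.beq u 25))) = true := by decide +kernel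

theorem xCase_spec (hJ : J ≤ Kp) (hc : Nat.card J = 20160) (hx : x5p ∈ stabIn J b0) {k : ℕ}
    (hy : wperm gperm [Data.y0, eIdx k] ∈ stabIn J b0) {ch orbs parts sel}
    (h : xCaseOk k ch orbs parts sel = true) :
    Nat.card (stabIn J b0) = 360 ∧ ∃ s, sel = some s ∧
      orbit J b0 = insert b0 (maskSet (selMask tblT (xGens k) parts s)) := by
  simp only [xCaseOk, Bool.and_eq_true, List.all_eq_true, List.mem_range] at h
  obtain ⟨⟨⟨⟨hch, hw⟩, hprod⟩, hcov⟩, hsel⟩ := h
  have hgens : ∀ w ∈ xGens k, wperm gperm w ∈ stabIn J b0 := by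
    intro w hw
    simp only [xGens, List.mem_cons, List.not_mem_nil, or_false] at hw
    rcases hw with rfl | rfl
    · rw [wperm_singleton]; exact hx
    · exact hy
  have h360 : Nat.card (stabIn J b0) = 360 := by
    have := chain_le hgens hch hw
    rw [Nat.eq_of_beq_eq_true hprod] at this
    rcases card_stabIn_near hJ hc with e | e <;> omega
  refine ⟨h360, ?_⟩
  have hb : b0 ∈ maskSet Data.nearMask := orbit_b0 ▸ mem_orbit_self b0
  have horb := ncard_orbit_mul_stabIn J b0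
  rw [hc, h360] at horb
  set O := orbit J b0 with hO
  have hn : O.ncard = 56 := by omega
  have hinv : ∀ g ∈ stabIn J b0, ∀ x ∈ O \ {b0}, g x ∈ O \ {b0} := by
    rintro g hg x ⟨⟨t, rfl⟩, hxb⟩
    refine ⟨⟨⟨g, hg.1⟩ * t, rfl⟩, fun e => hxb ?_⟩
    rw [Set.mem_singleton_iff] at e ⊢
    exact g.injective (e.trans hg.2.symm)
  have hR : O \ {b0} ⊆ maskSet restMask := by
    rintro x ⟨hx', hxb⟩
    have h1 := allBelow_spec restMask_ok x x.2
    rw [mem_maskSet, eq_of_beq h1, Bool.and_eq_true, mem_maskSet.1 (orbit_subset_near hJ hb hx')]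
    refine ⟨rfl, ?_⟩
    rcases hq : Nat.beq x 25 with _ | _
    · rfl
    · exact absurd (Fin.ext (Nat.eq_of_beq_eq_true hq) : x = b0) hxb
  obtain ⟨s, hs, hsO⟩ := exists_selMask hgens hcov hinv hR
  refine ⟨s, ?_, ?_⟩
  · have h55 : maskCount 275 (selMask tblT (xGens k) parts s) = 55 := by
      rw [← ncard_maskSet, ← hsO, Set.ncard_sdiff_singleton_of_mem (mem_orbit_self b0), hn]
    have := hsel s hs
    rw [h55] at this
    simpa using this
  · rw [← hsO, Set.insert_sdiff_singleton, Set.insert_eq_self.2 (mem_orbit_self b0)]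

/-- The generators after adjoining a third element. -/
noncomputable def jGens (k t good : ℕ) : List (List ℕ) := xGens k ++ [[t, eIdx good]]

/-- The mask of the orbit. -/
noncomputable def jMask (k : ℕ) (parts : List (ℕ × ℕ × List (ℕ × ℕ × ℕ))) (s : ℕ) : ℕ :=
  Nat.lor (Nat.shiftLeft 1 25) (selMask tblT (xGens k) parts s)

/-- A surviving case. -/
noncomputable def jCaseOk (k : ℕ) (parts : List (ℕ × ℕ × List (ℕ × ℕ × ℕ))) (s q t : ℕ)
    (kills : List (ℕ × ℕ)) (good : ℕ) (ch : List (ℕ × List (List ℕ) × List (ℕ × ℕ × ℕ))) (orbs : List ℕ) :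
    Bool :=
  inKp t && Nat.beq (tblT t 25) q && Nat.testBit (jMask k parts s) q && Nat.blt q 275 &&
    (kills.all fun p => Nat.blt p.2 275 && Nat.testBit (jMask k parts s) p.2 &&
      !(Nat.testBit (jMask k parts s) (ev tblT [t, eIdx p.1] p.2))) &&
    ((List.range 81).all fun e => Nat.beq e good || (kills.map Prod.fst).contains e) &&
    chainOK tblT 275 (cnvLv ch) [] orbs && chainWords (jGens k t good) (cnvLv ch) &&
    Nat.beq orbs.prod 20160

theorem jCase_spec (hJ : J ≤ Kp) (hc : Nat.card J = 20160) (hx : x5p ∈ stabIn J b0) {k : ℕ}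
    (hy : wperm gperm [Data.y0, eIdx k] ∈ stabIn J b0) {parts : List (ℕ × ℕ × List (ℕ × ℕ × ℕ))} {s : ℕ}
    (h360 : Nat.card (stabIn J b0) = 360)
    (horb : orbit J b0 = insert b0 (maskSet (selMask tblT (xGens k) parts s)))
    {q t : ℕ} {kills : List (ℕ × ℕ)} {good : ℕ} {ch orbs}
    (h : jCaseOk k parts s q t kills good ch orbs = true) :
    J = Subgroup.closure (wperm gperm '' {w | w ∈ jGens k t good}) := by
  simp only [jCaseOk, Bool.and_eq_true, List.all_eq_true, List.mem_range, Nat.blt_eq] at h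
  obtain ⟨⟨⟨⟨⟨⟨⟨⟨htK, htq⟩, hqO⟩, hq⟩, hkills⟩, hcov⟩, hch⟩, hw⟩, hprod⟩ := h
  have hO : ∀ y : Fin 275, Nat.testBit (jMask k parts s) y = true ↔ y ∈ orbit J b0 := by
    intro y
    rw [horb, jMask, Set.mem_insert_iff, mem_maskSet]
    change Nat.testBit (1 <<< 25 ||| _) (y : ℕ) = true ↔ _
    rw [Nat.testBit_or, Bool.or_eq_true, Nat.one_shiftLeft, Nat.testBit_two_pow, decide_eq_true_eq]
    exact or_congr ⟨fun e => Fin.ext e.symm, fun e => e ▸ rfl⟩ Iff.rfl
  obtain ⟨⟨g, hg⟩, hgq⟩ := (hO ⟨q, hq⟩).1 hqO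
  change g b0 = ⟨q, hq⟩ at hgq
  have ht : gperm t b0 = ⟨q, hq⟩ := Fin.ext ((describes t b0).trans (Nat.eq_of_beq_eq_true htq))
  obtain ⟨hcard, hle, -, hmul⟩ := sup_eSub hJ hc hx
  have hA : stabIn J b0 ⊔ eSub = Kb :=
    Subgroup.eq_of_le_of_card_ge hle (by rw [natCard_Kb]; rw [h360] at hcard; omega)
  have hmem : (gperm t)⁻¹ * g ∈ stabIn J b0 ⊔ eSub := by
    rw [hA]
    refine mem_stabIn.2 ⟨mul_mem (inv_mem (inKp_mem htK)) (hJ hg), ?_⟩
    rw [Equiv.Perm.mul_apply, hgq, ← ht, Equiv.Perm.inv_def, Equiv.symm_apply_apply]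
  rw [← SetLike.mem_coe, hmul] at hmem
  obtain ⟨e, he, y, hy', hey⟩ := hmem
  obtain ⟨l, hl, rfl⟩ := mem_eSub.1 he
  have hte : wperm gperm [t, eIdx l] ∈ J := by
    have : wperm gperm [t, eIdx l] = g * y⁻¹ := by
      simp only at hey
      rw [show wperm gperm [t, eIdx l] = gperm t * gperm (eIdx l) by simp [wperm]]
      rw [eq_mul_inv_iff_mul_eq, mul_assoc, hey, mul_inv_cancel_left]
    rw [this]
    exact mul_mem hg (inv_mem hy'.1)
  have hlgood : l = good := by
    rcases Bool.or_eq_true _ _ |>.mp (hcov l hl) with e | e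
    · exact Nat.eq_of_beq_eq_true e
    exfalso
    simp only [List.contains_iff_mem, List.mem_map] at e
    obtain ⟨p, hp, rfl⟩ := e
    obtain ⟨⟨hp2, hin⟩, hout⟩ := hkills p hp
    simp only [Bool.not_eq_true'] at hout
    obtain ⟨⟨u, hu⟩, hup⟩ := (hO ⟨p.2, hp2⟩).1 hin
    have hin' : wperm gperm [t, eIdx p.1] ⟨p.2, hp2⟩ ∈ orbit J b0 :=
      ⟨⟨_, hte⟩ * ⟨u, hu⟩, congrArg (wperm gperm [t, eIdx p.1]) hup⟩
    have := (hO _).2 hin'
    rw [ev_eq describes] at this
    rw [show ((⟨p.2, hp2⟩ : Fin 275) : ℕ) = p.2 from rfl, hout] at this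
    exact Bool.noConfusion this
  subst hlgood
  have hgens : ∀ w ∈ jGens k t l, wperm gperm w ∈ J := by
    intro w hw
    simp only [jGens, xGens, List.cons_append, List.nil_append, List.mem_cons, List.not_mem_nil, or_false] at hw
    rcases hw with rfl | rfl | rfl
    · rw [wperm_singleton]; exact hx.1
    · exact hy.1
    · exact hte
  have hle' : Subgroup.closure (wperm gperm '' {w | w ∈ jGens k t l}) ≤ J :=
    (Subgroup.closure_le _).2 (by rintro _ ⟨w, hw, rfl⟩; exact hgens w hw)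
  refine (Subgroup.eq_of_le_of_card_ge hle' ?_).symm
  rw [hc, ← Nat.eq_of_beq_eq_true hprod]
  exact chain_le (fun w hw => Subgroup.subset_closure (Set.mem_image_of_mem _ hw)) hch hw

/-- The conclusion for a subgroup. -/
def FixesFar (J : Subgroup (Equiv.Perm (Fin 275))) : Prop :=
  ∃ c ∈ maskSet Data.farMask, (∀ g : Kp, (g : Equiv.Perm (Fin 275)) ∈ J ↔ (g : Equiv.Perm (Fin 275)) c = c) ∨
    (∀ g : Kp, (g : Equiv.Perm (Fin 275)) ∈ J ↔ ((alpha g : Kp) : Equiv.Perm (Fin 275)) c = c)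

/-- The generators fix a far point. -/
noncomputable def fixOk (gens : List (List ℕ)) (c : ℕ) : Bool :=
  Nat.blt c 275 && Nat.testBit Data.farMask c && gens.all fun w => Nat.beq (ev tblT w c) c

theorem fix_spec (hJ : J ≤ Kp) (hc : Nat.card J = 20160) {gens : List (List ℕ)}
    (he : J = Subgroup.closure (wperm gperm '' {w | w ∈ gens})) {c : ℕ} (h : fixOk gens c = true) :
    FixesFar J := by
  simp only [fixOk, Bool.and_eq_true, List.all_eq_true, Nat.blt_eq] at h
  set x : Fin 275 := ⟨c, h.1.1⟩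
  have hle : J ≤ stabIn Kp x := by
    refine le_inf hJ ?_
    rw [he, Subgroup.closure_le]
    rintro _ ⟨w, hw, rfl⟩
    exact Fin.ext ((ev_eq describes w x).trans (Nat.eq_of_beq_eq_true (h.2 w hw)))
  have e : J = stabIn Kp x :=
    Subgroup.eq_of_le_of_card_ge hle (by rw [stabIn_card_far (mem_maskSet.2 h.1.2), hc])
  exact ⟨x, h.1.2, Or.inl fun g => by rw [e]; exact ⟨fun hg => hg.2, fun hg => ⟨g.2, hg⟩⟩⟩

/-- The images of the generators fix a far point. -/
noncomputable def imgOk (gens imgs : List (List ℕ)) (c : ℕ) : Bool :=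
  fixOk imgs c && Nat.beq imgs.length gens.length && imgs.all wordInK && gens.all wordInK &&
    (List.range gens.length).all fun j => allBelow 9 275 fun u =>
      Nat.beq (field Data.alphaB 9 (ev tblB (gens.getD j []) u)) (ev tblB (imgs.getD j []) (field Data.alphaB 9 u))

theorem img_spec (hJ : J ≤ Kp) (hc : Nat.card J = 20160) {gens imgs : List (List ℕ)}
    (he : J = Subgroup.closure (wperm gperm '' {w | w ∈ gens})) {c : ℕ} (h : imgOk gens imgs c = true) :
    FixesFar J := by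
  simp only [imgOk, fixOk, Bool.and_eq_true, List.all_eq_true, List.mem_range, Nat.blt_eq] at h
  obtain ⟨⟨⟨⟨⟨⟨hlt, hfar⟩, hfix⟩, hlen⟩, hin'⟩, hin⟩, himg⟩ := h
  set x : Fin 275 := ⟨c, hlt⟩
  have hx : x ∈ maskSet Data.farMask := hfar
  set S : Subgroup Kp :=
    (stabilizer (Equiv.Perm (Fin 275)) x).comap (Kp.subtype.comp alpha.toMonoidHom) with hS
  have hScard : Nat.card S = 20160 := by
    rw [← stabIn_card_far hx]
    exact Nat.card_congr
      { toFun := fun g => ⟨(alpha g.1).1, (alpha g.1).2, g.2⟩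
        invFun := fun m => ⟨alpha.symm ⟨m.1, m.2.1⟩, by
          show (alpha (alpha.symm ⟨m.1, m.2.1⟩)).1 x = x
          rw [MulEquiv.apply_symm_apply]
          exact m.2.2⟩
        left_inv := fun g => Subtype.ext (by simp)
        right_inv := fun m => Subtype.ext (by simp) }
  have hle : J ≤ S.map Kp.subtype := by
    rw [he, Subgroup.closure_le]
    rintro _ ⟨w, hw, rfl⟩
    obtain ⟨j, hj, rfl⟩ := List.getElem_of_mem hw
    have hj' : j < imgs.length := by rw [Nat.eq_of_beq_eq_true hlen]; exact hj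
    have hm : wordInK gens[j] = true := hin _ (List.getElem_mem _)
    have hm' : wordInK imgs[j] = true := hin' _ (List.getElem_mem _)
    refine ⟨⟨_, wperm_mem_Kp hm⟩, ?_, rfl⟩
    change ((alpha ⟨_, wperm_mem_Kp hm⟩ : Kp) : Equiv.Perm (Fin 275)) x = x
    rw [alpha_eq (wperm_mem_Kp hm) (wperm_mem_Kp hm') (by
      rw [resB_wperm hm, resB_wperm hm']
      refine Equiv.ext fun u => Fin.ext ?_
      rw [Equiv.Perm.mul_apply, Equiv.Perm.mul_apply, ev_eq describesB, alphaPerm, mkPerm_val, mkPerm_val,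
        ev_eq describesB]
      have := Nat.eq_of_beq_eq_true (allBelow_spec (himg j hj) u u.2)
      rw [List.getD_eq_getElem _ _ hj, List.getD_eq_getElem _ _ hj'] at this
      exact this.symm)]
    exact Fin.ext ((ev_eq describes _ x).trans (Nat.eq_of_beq_eq_true (hfix _ (List.getElem_mem _))))
  have e : J = S.map Kp.subtype := Subgroup.eq_of_le_of_card_ge hle (by
    rw [hc, ← hScard]
    exact le_of_eq (Nat.card_congr (S.equivMapOfInjective _ Subtype.val_injective).toEquiv).symm)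
  refine ⟨x, hx, Or.inr fun g => ?_⟩
  rw [e]
  exact ⟨fun ⟨g', hg', he'⟩ => Subtype.ext (a1 := g') (a2 := g) he' ▸ hg', fun hg => ⟨g, hg, rfl⟩⟩

theorem cases_ok : (xCaseOk Data.xIdx0 Data.xChain0 Data.xOrbs0 Data.xParts0 none &&
    xCaseOk Data.xIdx1 Data.xChain1 Data.xOrbs1 Data.xParts1 (some Data.jSel1) &&
    xCaseOk Data.xIdx2 Data.xChain2 Data.xOrbs2 Data.xParts2 none &&
    xCaseOk Data.xIdx3 Data.xChain3 Data.xOrbs3 Data.xParts3 none &&
    xCaseOk Data.xIdx4 Data.xChain4 Data.xOrbs4 Data.xParts4 (some Data.jSel4) &&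
    xCaseOk Data.xIdx5 Data.xChain5 Data.xOrbs5 Data.xParts5 (some Data.jSel5) &&
    xCaseOk Data.xIdx6 Data.xChain6 Data.xOrbs6 Data.xParts6 none &&
    xCaseOk Data.xIdx7 Data.xChain7 Data.xOrbs7 Data.xParts7 none &&
    xCaseOk Data.xIdx8 Data.xChain8 Data.xOrbs8 Data.xParts8 (some Data.jSel8)) = true := by decide +kernel

theorem survivors_ok :
    (jCaseOk Data.xIdx1 Data.xParts1 Data.jSel1 Data.jRep1 77 Data.jKills1 Data.jGood1 Data.jChain1 Data.jOrbs1 &&
      fixOk (jGens Data.xIdx1 77 Data.jGood1) Data.jFix1) = true ∧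
    (jCaseOk Data.xIdx4 Data.xParts4 Data.jSel4 Data.jRep4 89 Data.jKills4 Data.jGood4 Data.jChain4 Data.jOrbs4 &&
      imgOk (jGens Data.xIdx4 89 Data.jGood4) Data.jImages4 Data.jFix4) = true ∧
    (jCaseOk Data.xIdx5 Data.xParts5 Data.jSel5 Data.jRep5 39 Data.jKills5 Data.jGood5 Data.jChain5 Data.jOrbs5 &&
      imgOk (jGens Data.xIdx5 39 Data.jGood5) Data.jImages5 Data.jFix5) = true ∧
    (jCaseOk Data.xIdx8 Data.xParts8 Data.jSel8 Data.jRep8 36 Data.jKills8 Data.jGood8 Data.jChain8 Data.jOrbs8 &&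
      fixOk (jGens Data.xIdx8 36 Data.jGood8) Data.jFix8) = true := by decide +kernel

theorem cases_cover : ((List.range 81).all fun k => (Data.xKills.map Prod.fst).contains k ||
    [Data.xIdx0, Data.xIdx1, Data.xIdx2, Data.xIdx3, Data.xIdx4, Data.xIdx5, Data.xIdx6, Data.xIdx7,
      Data.xIdx8].contains k) = true := by decide +kernel

theorem fixesFar_of_mem (hJ : J ≤ Kp) (hc : Nat.card J = 20160) (hx : x5p ∈ stabIn J b0) : FixesFar J := by
  obtain ⟨k, hk, hy⟩ := exists_y0 hJ hc hx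
  have hcov := List.all_eq_true.1 cases_cover k (List.mem_range.2 hk)
  simp only [Bool.or_eq_true, List.contains_iff_mem, List.mem_map, List.mem_cons, List.not_mem_nil, or_false] at hcov
  have h := cases_ok
  simp only [Bool.and_eq_true] at h
  obtain ⟨⟨⟨⟨⟨⟨⟨⟨h0, h1⟩, h2⟩, h3⟩, h4⟩, h5⟩, h6⟩, h7⟩, h8⟩ := h
  obtain ⟨s1, s4, s5, s8⟩ := survivors_ok
  simp only [Bool.and_eq_true] at s1 s4 s5 s8
  rcases hcov with ⟨p, hp, hpk⟩ | rfl | rfl | rfl | rfl | rfl | rfl | rfl | rfl | rfl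
  · exact (kill_absurd hJ hc hx hy hp hpk).elim
  · obtain ⟨-, _, he, -⟩ := xCase_spec hJ hc hx hy h0
    exact absurd he (by simp)
  · obtain ⟨h360, _, he, horb⟩ := xCase_spec hJ hc hx hy h1
    cases he
    exact fix_spec hJ hc (jCase_spec hJ hc hx hy h360 horb s1.1) s1.2
  · obtain ⟨-, _, he, -⟩ := xCase_spec hJ hc hx hy h2
    exact absurd he (by simp)
  · obtain ⟨-, _, he, -⟩ := xCase_spec hJ hc hx hy h3
    exact absurd he (by simp)
  · obtain ⟨h360, _, he, horb⟩ := xCase_spec hJ hc hx hy h4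
    cases he
    exact img_spec hJ hc (jCase_spec hJ hc hx hy h360 horb s4.1) s4.2
  · obtain ⟨h360, _, he, horb⟩ := xCase_spec hJ hc hx hy h5
    cases he
    exact img_spec hJ hc (jCase_spec hJ hc hx hy h360 horb s5.1) s5.2
  · obtain ⟨-, _, he, -⟩ := xCase_spec hJ hc hx hy h6
    exact absurd he (by simp)
  · obtain ⟨-, _, he, -⟩ := xCase_spec hJ hc hx hy h7
    exact absurd he (by simp)
  · obtain ⟨h360, _, he, horb⟩ := xCase_spec hJ hc hx hy h8
    cases he
    exact fix_spec hJ hc (jCase_spec hJ hc hx hy h360 horb s8.1) s8.2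

end Normalised

/-- Subgroups of index 162 fix a far point, possibly after the automorphism. -/
theorem class_far {J : Subgroup (Equiv.Perm (Fin 275))} (hJ : J ≤ Kp) (hc : Nat.card J = 20160) :
    FixesFar J := by
  haveI : Fact (Nat.Prime 5) := ⟨by norm_num⟩
  obtain ⟨m, hm, hp⟩ : ∃ m, Nat.card (stabIn J b0) * m = Nat.card Kb ∧ ¬ 5 ∣ m := by
    rcases card_stabIn_near hJ hc with e | e
    · exact ⟨162, by rw [e, natCard_Kb], by norm_num⟩
    · exact ⟨81, by rw [e, natCard_Kb], by norm_num⟩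
  obtain ⟨k, hk, hconj⟩ := exists_conj_le' (p := 5) (stabIn_le_Kb hJ) (Subgroup.zpowers_le.2 x5p_mem)
    isPGroup_x5p hm hp
  set J' := J.comap (MulAut.conj k).toMonoidHom with hJ'
  have hkK : k ∈ Kp := hk.1
  have hJ'le : J' ≤ Kp := by
    intro u hu
    have h1 : k * u * k⁻¹ ∈ Kp := hJ hu
    have := mul_mem (mul_mem (inv_mem hkK) h1) hkK
    simpa [mul_assoc] using this
  have hcard : Nat.card J' = 20160 := by
    rw [← hc]
    exact Nat.card_congr ((MulAut.conj k).toEquiv.subtypeEquiv fun _ => Iff.rfl)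
  have hx : x5p ∈ stabIn J' b0 := ⟨(hconj _ (Subgroup.mem_zpowers _)).1, x5p_mem.2⟩
  obtain ⟨c, hc', h⟩ := fixesFar_of_mem hJ'le hcard hx
  set k' : Kp := ⟨k, hkK⟩
  have hconv : ∀ g : Kp, (g : Equiv.Perm (Fin 275)) ∈ J ↔ ((k'⁻¹ * g * k' : Kp) : Equiv.Perm (Fin 275)) ∈ J' := by
    intro g
    show _ ↔ k * (k⁻¹ * (g : Equiv.Perm (Fin 275)) * k) * k⁻¹ ∈ J
    rw [show k * (k⁻¹ * (g : Equiv.Perm (Fin 275)) * k) * k⁻¹ = g by group]
  have hfar : ∀ m : Kp, (m : Equiv.Perm (Fin 275)) c ∈ maskSet Data.farMask := by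
    intro m
    rw [← orbit_c0] at hc' ⊢
    obtain ⟨t, rfl⟩ := hc'
    exact ⟨m * t, rfl⟩
  have hiff : ∀ (m n : Equiv.Perm (Fin 275)), (m⁻¹ * n * m) c = c ↔ n (m c) = m c := fun m n => by
    rw [Equiv.Perm.mul_apply, Equiv.Perm.mul_apply, Equiv.Perm.inv_def, Equiv.symm_apply_eq]
  rcases h with h | h
  · refine ⟨k c, hfar k', Or.inl fun g => ?_⟩
    rw [hconv g, h, ← hiff]
    rfl
  · refine ⟨(alpha k' : Kp).1 c, hfar _, Or.inr fun g => ?_⟩
    rw [hconv g, h, ← hiff, map_mul, map_mul, map_inv]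
    rfl

end CfsgLib.RankThreeMcL
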