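import Cfsg.Agent.Lib.RankThreeMcL.Tables
import Cfsg.Agent.Lib.RankThreeMcL.GraphData
import Cfsg.Agent.Lib.RankThreeRecog.Recognise

/-!
The graph of valency 112 on the 275 points of the McLaughlin group: its adjacency, the orbits of the
stabilisers of two points, and the bound on its automorphisms fixing a point.
-/

set_option autoImplicit false
set_option linter.style.haveILetI false

namespace CfsgLib.RankThreeMcL

open MulAction RankThreeRecog

/-- The subgroup of the stabiliser of the first point fixing one more point. -/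
noncomputable def fix2 (z : Fin 275) : Subgroup (Equiv.Perm (Fin 275)) :=
  mclS ⊓ stabilizer (Equiv.Perm (Fin 275)) (0 : Fin 275) ⊓ stabilizer (Equiv.Perm (Fin 275)) z

/-- A certified part: everything in the mask is reached from the root. -/
noncomputable def partOK (gens : List (List ℕ)) (fixd : List ℕ) (root : ℕ) (es : List (ℕ × ℕ × ℕ))
    (m : ℕ) : Bool :=
  (gens.all fun w => fixesAll tT fixd w) &&
    (match grow tT gens es (Nat.shiftLeft 1 root) with
     | some m' => Nat.beq m' m
     | none => false)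

theorem part_spec {gens : List (List ℕ)} {fixd : List ℕ} {root : Fin 275} {es : List (ℕ × ℕ × ℕ)}
    {m : ℕ} (h : partOK gens fixd root es m = true) {L : Subgroup (Equiv.Perm (Fin 275))}
    (hL : ∀ w, fixesAll tT fixd w = true → wperm sg w ∈ L) :
    maskSet m ⊆ orbit L root := by
  simp only [partOK, Bool.and_eq_true, List.all_eq_true] at h
  obtain ⟨hg, h⟩ := h
  rcases e : grow tT gens es (Nat.shiftLeft 1 (root : ℕ)) with _ | m'
  · rw [e] at h; exact absurd h (by simp)
  rw [e] at h
  obtain rfl : m' = m := Nat.eq_of_beq_eq_true h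
  intro x hx
  obtain ⟨y, hy, hyx⟩ := grow_spec describesT (fun w hw => hL w (hg w hw)) (orbit L root)
    (fun g hgL y hy => by
      obtain ⟨t, rfl⟩ := hy
      exact ⟨⟨g, hgL⟩ * t, rfl⟩) tT_lt es _ _ e (fun i hi => by
      change Nat.testBit (1 <<< (root : ℕ)) i = true at hi
      rw [Nat.one_shiftLeft, Nat.testBit_two_pow, decide_eq_true_eq] at hi
      exact ⟨root, mem_orbit_self _, hi⟩) x hx
  rwa [Fin.ext hyx] at hy

theorem fix2_spec {z : Fin 275} {w : List ℕ} (h : fixesAll tT [0, (z : ℕ)] w = true) :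
    wperm sg w ∈ fix2 z :=
  ⟨⟨sgWord_mem w, fixesAll_spec describesT h 0 (by simp)⟩, fixesAll_spec describesT h z (by simp)⟩

theorem invariant_part {z root : Fin 275} {m : ℕ} {A : Set (Fin 275)} (hp : maskSet m ⊆ orbit (fix2 z) root)
    (hA : ∀ s : mclS, s • (0 : Fin 275) = 0 → s • z = z → ∀ y ∈ A, s • y ∈ A) :
    maskSet m ⊆ A ∨ Disjoint (maskSet m) A := by
  by_cases hd : Disjoint (maskSet m) A
  · exact Or.inr hd
  obtain ⟨y, hy, hyA⟩ := Set.not_disjoint_iff.1 hd
  left
  intro x hx
  obtain ⟨g, hg⟩ : x ∈ orbit (fix2 z) y := by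
    rw [orbit_eq_iff.2 (hp hy)]
    exact hp hx
  rw [← hg]
  exact hA ⟨g, g.2.1.1⟩ g.2.1.2 g.2.2 y hyA

theorem two_parts {z r₁ r₂ : Fin 275} {m₁ m₂ : ℕ} {A T : Set (Fin 275)}
    (h₁ : maskSet m₁ ⊆ orbit (fix2 z) r₁) (h₂ : maskSet m₂ ⊆ orbit (fix2 z) r₂)
    (hT : T ⊆ maskSet m₁ ∪ maskSet m₂) (hA : A ⊆ T)
    (hinv : ∀ s : mclS, s • (0 : Fin 275) = 0 → s • z = z → ∀ y ∈ A, s • y ∈ A) :
    A = ∅ ∨ A = maskSet m₁ ∨ A = maskSet m₂ ∨ A = maskSet m₁ ∪ maskSet m₂ := by
  rcases invariant_part h₁ hinv with a | a <;> rcases invariant_part h₂ hinv with b | b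
  · exact Or.inr (Or.inr (Or.inr (subset_antisymm (hA.trans hT) (Set.union_subset a b))))
  · refine Or.inr (Or.inl (subset_antisymm (fun x hx => ?_) a))
    exact (hT (hA hx)).resolve_right fun e => Set.disjoint_left.1 b e hx
  · refine Or.inr (Or.inr (Or.inl (subset_antisymm (fun x hx => ?_) b)))
    exact (hT (hA hx)).resolve_left fun e => Set.disjoint_left.1 a e hx
  · refine Or.inl (Set.eq_empty_iff_forall_notMem.2 fun x hx => ?_)
    rcases hT (hA hx) with e | e
    · exact Set.disjoint_left.1 a e hx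
    · exact Set.disjoint_left.1 b e hx

open GraphData

theorem ok_near : partOK kGens [0] 25 esNear nearMask = true := by decide +kernel
theorem ok_far : partOK kGens [0] 1 esFar farMask = true := by decide +kernel
theorem ok_nb0 : partOK bGens [0, 25] 26 nbEs0 nbMask0 = true := by decide +kernel
theorem ok_nb1 : partOK bGens [0, 25] 149 nbEs1 nbMask1 = true := by decide +kernel
theorem ok_cb0 : partOK cGens [0, 1] 25 cbEs0 cbMask0 = true := by decide +kernel
theorem ok_cb1 : partOK cGens [0, 1] 37 cbEs1 cbMask1 = true := by decide +kernel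
theorem ok_cc0 : partOK cGens [0, 1] 2 ccEs0 ccMask0 = true := by decide +kernel
theorem ok_cc1 : partOK cGens [0, 1] 27 ccEs1 ccMask1 = true := by decide +kernel

theorem counts : maskCount 275 nearMask = 112 ∧ maskCount 275 farMask = 162 ∧
    maskCount 275 nbMask0 = 81 ∧ maskCount 275 nbMask1 = 30 ∧
    maskCount 275 cbMask0 = 56 ∧ maskCount 275 cbMask1 = 56 ∧
    maskCount 275 ccMask0 = 105 ∧ maskCount 275 ccMask1 = 56 ∧
    maskCount 275 (nbMask0 ||| nbMask1) = 111 ∧ maskCount 275 (ccMask0 ||| ccMask1) = 161 := by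
  decide +kernel

/-- The coverings of the suborbits by the parts. -/
theorem covers : Nat.beq (nbMask0 ||| nbMask1 ||| 2 ^ 25) nearMask = true ∧
    Nat.beq (cbMask0 ||| cbMask1) nearMask = true ∧
    Nat.beq (ccMask0 ||| ccMask1 ||| 2 ^ 1) farMask = true := by decide +kernel

theorem maskSet_or (m m' : ℕ) : maskSet (m ||| m') = maskSet m ∪ maskSet m' := by
  ext x
  simp [maskSet, Nat.testBit_or]

theorem mem_orbit_near {x : Fin 275} (h : x ∈ maskSet nearMask) :
    x ∈ orbit (stabilizer mclS (0 : Fin 275)) (25 : Fin 275) := by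
  obtain ⟨g, hg⟩ := part_spec (root := 25) ok_near
    (L := mclS ⊓ stabilizer (Equiv.Perm (Fin 275)) (0 : Fin 275))
    (fun w hw => ⟨sgWord_mem w, fixesAll_spec describesT hw 0 (by simp)⟩) h
  exact ⟨⟨⟨g, g.2.1⟩, g.2.2⟩, hg⟩

theorem mem_orbit_far {x : Fin 275} (h : x ∈ maskSet farMask) :
    x ∈ orbit (stabilizer mclS (0 : Fin 275)) (1 : Fin 275) := by
  obtain ⟨g, hg⟩ := part_spec (root := 1) ok_far
    (L := mclS ⊓ stabilizer (Equiv.Perm (Fin 275)) (0 : Fin 275))
    (fun w hw => ⟨sgWord_mem w, fixesAll_spec describesT hw 0 (by simp)⟩) h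
  exact ⟨⟨⟨g, g.2.1⟩, g.2.2⟩, hg⟩

section
variable (hS : Sub mclS (0 : Fin 275) 25 1 275 112 162)
include hS

theorem orbit_near : orbit (stabilizer mclS (0 : Fin 275)) (25 : Fin 275) = maskSet nearMask :=
  (Set.eq_of_subset_of_ncard_le (fun _ => mem_orbit_near)
    (by rw [hS.near, ncard_maskSet, counts.1])).symm

theorem orbit_far : orbit (stabilizer mclS (0 : Fin 275)) (1 : Fin 275) = maskSet farMask :=
  (Set.eq_of_subset_of_ncard_le (fun _ => mem_orbit_far)
    (by rw [hS.far, ncard_maskSet, counts.2.1])).symm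

end

theorem nearNear_unique (hS : Sub mclS (0 : Fin 275) 25 1 275 112 162) (A A' : Set (Fin 275))
    (h : ∀ B ∈ [A, A'], B ⊆ orbit (stabilizer mclS (0 : Fin 275)) (25 : Fin 275) ∧ (25 : Fin 275) ∉ B ∧
      (∀ s : mclS, s • (0 : Fin 275) = 0 → s • (25 : Fin 275) = 25 → ∀ y ∈ B, s • y ∈ B) ∧ B.ncard + 1 < 112 ∧
      162 ∣ 112 * (112 - 1 - B.ncard)) : A = A' := by
  suffices key : ∀ B ∈ [A, A'], B = maskSet nbMask1 by
    rw [key A (by simp), key A' (by simp)]
  intro B hB
  obtain ⟨hsub, h25, hinv, hlt, hdvd⟩ := h B hB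
  rw [orbit_near hS, ← Nat.eq_of_beq_eq_true covers.1, maskSet_or, maskSet_or] at hsub
  have h1 := part_spec (root := 26) ok_nb0 (L := fix2 25) (fun w hw => fix2_spec hw)
  have h2 := part_spec (root := 149) ok_nb1 (L := fix2 25) (fun w hw => fix2_spec hw)
  have hs : B ⊆ maskSet nbMask0 ∪ maskSet nbMask1 := fun x hx => by
    refine (hsub hx).resolve_right fun e => h25 ?_
    have : x = (25 : Fin 275) := Fin.ext (by
      simp only [maskSet, Set.mem_ofPred_eq, Nat.testBit_two_pow, decide_eq_true_eq] at e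
      exact e.symm)
    rwa [this] at hx
  rcases two_parts h1 h2 subset_rfl hs hinv with e | e | e | e
  · rw [e, Set.ncard_empty] at hdvd
    exact absurd hdvd (by decide)
  · rw [e, ncard_maskSet, counts.2.2.1] at hdvd
    exact absurd hdvd (by decide)
  · exact e
  · rw [e, ← maskSet_or, ncard_maskSet, counts.2.2.2.2.2.2.2.2.1] at hlt
    exact absurd hlt (by decide)

theorem farFar_unique (hS : Sub mclS (0 : Fin 275) 25 1 275 112 162) (A A' : Set (Fin 275))
    (h : ∀ B ∈ [A, A'], B ⊆ orbit (stabilizer mclS (0 : Fin 275)) (1 : Fin 275) ∧ (1 : Fin 275) ∉ B ∧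
      (∀ s : mclS, s • (0 : Fin 275) = 0 → s • (1 : Fin 275) = 1 → ∀ y ∈ B, s • y ∈ B))
    (hn : A.ncard = A'.ncard) : A = A' := by
  have h1 := part_spec (root := 2) ok_cc0 (L := fix2 1) (fun w hw => fix2_spec hw)
  have h2 := part_spec (root := 27) ok_cc1 (L := fix2 1) (fun w hw => fix2_spec hw)
  have key : ∀ B ∈ [A, A'], B = ∅ ∨ B = maskSet ccMask0 ∨ B = maskSet ccMask1 ∨
      B = maskSet ccMask0 ∪ maskSet ccMask1 := by
    intro B hB
    obtain ⟨hsub, h25, hinv⟩ := h B hB
    rw [orbit_far hS, ← Nat.eq_of_beq_eq_true covers.2.2, maskSet_or, maskSet_or] at hsub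
    refine two_parts h1 h2 subset_rfl (fun x hx => ?_) hinv
    refine (hsub hx).resolve_right fun e => h25 ?_
    have : x = (1 : Fin 275) := Fin.ext (by
      simp only [maskSet, Set.mem_ofPred_eq, Nat.testBit_two_pow, decide_eq_true_eq] at e
      exact e.symm)
    rwa [this] at hx
  have c0 := (ncard_maskSet ccMask0).trans counts.2.2.2.2.2.2.1
  have c1 := (ncard_maskSet ccMask1).trans counts.2.2.2.2.2.2.2.1
  have c2 : (maskSet ccMask0 ∪ maskSet ccMask1).ncard = 161 := by
    rw [← maskSet_or, ncard_maskSet, counts.2.2.2.2.2.2.2.2.2]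
  rcases key A (by simp) with e | e | e | e <;> rcases key A' (by simp) with e' | e' | e' | e' <;>
    first
    | exact e.trans e'.symm
    | (subst e e'; rw [Set.ncard_empty] at hn; omega)
    | (subst e e'; omega)

/-- An invariant set of 56 points of the first suborbit is one of the two halves. -/
theorem farNear_cases (hS : Sub mclS (0 : Fin 275) 25 1 275 112 162) {A : Set (Fin 275)}
    (hsub : A ⊆ orbit (stabilizer mclS (0 : Fin 275)) (25 : Fin 275))
    (hinv : ∀ s : mclS, s • (0 : Fin 275) = 0 → s • (1 : Fin 275) = 1 → ∀ y ∈ A, s • y ∈ A)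
    (hn : A.ncard = 56) : A = maskSet cbMask1 ∨ A = maskSet cbMask0 := by
  have h1 := part_spec (root := 25) ok_cb0 (L := fix2 1) (fun w hw => fix2_spec hw)
  have h2 := part_spec (root := 37) ok_cb1 (L := fix2 1) (fun w hw => fix2_spec hw)
  rw [orbit_near hS, ← Nat.eq_of_beq_eq_true covers.2.1, maskSet_or] at hsub
  rcases two_parts h1 h2 subset_rfl hsub hinv with e | e | e | e
  · rw [e, Set.ncard_empty] at hn
    omega
  · exact Or.inr e
  · exact Or.inl e
  · rw [e, ← maskSet_or, Nat.eq_of_beq_eq_true covers.2.1, ncard_maskSet, counts.1] at hn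
    omega

/-! ### Adjacency -/

/-- The word moving the first point to a point. -/
noncomputable def transW (x : ℕ) : List ℕ := trans.getD x []

/-- The points of the first suborbit. -/
noncomputable def nearList : List ℕ := (List.range 275).filter fun i => Nat.testBit nearMask i

/-- The neighbours of a point, as a number. -/
noncomputable def adjMask (x : ℕ) : ℕ := imageMask tT (transW x) nearList

theorem trans_ok : ((List.range 275).all fun x => Nat.beq (ev tT (transW x) 0) x) = true := by
  decide +kernel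

theorem edge_iff_adjMask (hS : Sub mclS (0 : Fin 275) 25 1 275 112 162) (x y : Fin 275) :
    Edge mclS (0 : Fin 275) 25 x y ↔ Nat.testBit (adjMask x) y = true := by
  have hx : wperm sg (transW x) 0 = x := Fin.ext (by
    rw [ev_eq describesT]
    exact Nat.eq_of_beq_eq_true (List.all_eq_true.1 trans_ok x (List.mem_range.2 x.2)))
  let g : mclS := ⟨wperm sg (transW x), sgWord_mem _⟩
  have hl : ∀ u ∈ nearList, u < 275 := fun u hu => List.mem_range.1 (List.mem_filter.1 hu).1
  rw [adjMask, testBit_imageMask describesT _ _ hl]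
  have e : Edge mclS (0 : Fin 275) 25 x y ↔ g⁻¹ • y ∈ orbit (stabilizer mclS (0 : Fin 275)) (25 : Fin 275) := by
    rw [← edge_base, ← edge_smul g (x := (0 : Fin 275)), smul_inv_smul, show g • (0 : Fin 275) = x from hx]
  rw [e, orbit_near hS]
  simp only [maskSet, Set.mem_ofPred_eq, nearList, List.mem_filter, List.mem_range]
  exact ⟨fun h => ⟨Fin.isLt _, h⟩, fun h => h.2⟩

theorem cb1_adj : Nat.beq (Nat.land (adjMask 1) nearMask) cbMask1 = true := by decide +kernel

theorem farNear_eq (hS : Sub mclS (0 : Fin 275) 25 1 275 112 162) :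
    farNear mclS (0 : Fin 275) 25 1 = maskSet cbMask1 := by
  ext y
  change y ∈ orbit (stabilizer mclS (0 : Fin 275)) (25 : Fin 275) ∧ Edge mclS (0 : Fin 275) 25 1 y ↔ _
  rw [edge_iff_adjMask hS, orbit_near hS, ← Nat.eq_of_beq_eq_true cb1_adj]
  change _ ↔ Nat.testBit (adjMask 1 &&& nearMask) y = true
  rw [Nat.testBit_and, Bool.and_eq_true]
  simp only [maskSet, Set.mem_ofPred_eq]
  exact and_comm

/-! ### Automorphisms of the graph fixing a point -/

theorem rows_ok : ((rigidRows steps).all fun r => decide (r.1 < 275) && Nat.beq r.2 (adjMask r.1)) = true := by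
  decide +kernel

theorem rigid_ok : rigidOK 275 9 steps 1 = true := by decide +kernel

theorem bound_ok : rigidBound steps = 6531840 := by decide +kernel

theorem card_stab_relAut (hS : Sub mclS (0 : Fin 275) 25 1 275 112 162) :
    Nat.card ↥(stabilizer (relAut (Edge mclS (0 : Fin 275) (25 : Fin 275))) (0 : Fin 275)) ≤ 6531840 := by
  set A := relAut (Edge mclS (0 : Fin 275) (25 : Fin 275))
  have hr : RowsSpec (Edge mclS (0 : Fin 275) (25 : Fin 275)) (rigidRows steps) := by
    intro r hr
    have h := List.all_eq_true.1 rows_ok r hr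
    simp only [Bool.and_eq_true, decide_eq_true_eq] at h
    obtain ⟨h1, h2⟩ := h
    refine ⟨⟨r.1, h1⟩, rfl, fun i => ?_⟩
    have e := Nat.eq_of_beq_eq_true h2
    rw [edge_iff_adjMask hS]
    change Nat.testBit r.2 i = true ↔ Nat.testBit (adjMask r.1) i = true
    rw [e]
  have h := rigid_card (E := Edge mclS (0 : Fin 275) (25 : Fin 275)) (A := A)
    (fun g hg => mem_relAut.1 hg) steps 1 rigid_ok hr
  rw [bound_ok] at h
  refine le_trans (le_of_eq (Nat.card_congr ?_)) h
  exact
    { toFun := fun s => ⟨s.1.1, s.1.2, fun x hx => by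
        have : x = (0 : Fin 275) := Fin.ext (by
          rw [show (1 : ℕ) = 2 ^ 0 from rfl, Nat.testBit_two_pow, decide_eq_true_eq] at hx
          exact hx.symm)
        rw [this]
        exact s.2⟩
      invFun := fun s => ⟨⟨s.1, s.2.1⟩, s.2.2 0 (by decide)⟩
      left_inv := fun _ => rfl
      right_inv := fun _ => rfl }

end CfsgLib.RankThreeMcL
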