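import Cfsg.Agent.Lib.RankThreeMcL.StabB

/-!
Subgroups of index 112 of the point stabiliser fix a point of the near orbit.
-/

set_option autoImplicit false
set_option maxRecDepth 100000
set_option Elab.async false
set_option linter.style.haveILetI false

namespace CfsgLib.RankThreeMcL

open Cfsg CfsgLib.RankThreeRecog MulAction
open CfsgLib.SporRecognition.CosetCert (allBelow allBelow_spec field)
open scoped Pointwise

/-- The generators of a subgroup of three-power order. -/
def uGens : List (List ℕ) := Data.eGens.map (fun i => [i]) ++ [Data.uOne, Data.uTwo]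

theorem uChecks : (wordInB Data.uOne && wordInB Data.uTwo && Data.eGens.all inKb &&
    wordEq (List.replicate 3 Data.uOne).flatten [] && wordEq (List.replicate 3 Data.uTwo).flatten [] &&
    wordEq (Data.uOne ++ Data.uTwo) (Data.uTwo ++ Data.uOne) &&
    partsCover tblT uGens Data.uOrbits Data.nearMask && Nat.beq Data.uOrbits.length 4 &&
    ((List.range 16).all fun s =>
      !(Nat.testBit (selMask tblT uGens Data.uOrbits s) 25) ||
        (let c := maskCount 275 (selMask tblT uGens Data.uOrbits s)
         Nat.beq c 1 || Nat.beq c 4 || !(Nat.beq (29160 % c) 0)))) = true := by decide +kernel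

/-- A subgroup of three-power order fixing both points. -/
noncomputable def uSub : Subgroup (Equiv.Perm (Fin 275)) :=
  eSub ⊔ (Subgroup.zpowers (wperm gperm Data.uOne) ⊔ Subgroup.zpowers (wperm gperm Data.uTwo))

theorem uPair_le : Subgroup.zpowers (wperm gperm Data.uOne) ⊔ Subgroup.zpowers (wperm gperm Data.uTwo) ≤ Kb := by
  have h := uChecks
  simp only [Bool.and_eq_true] at h
  exact sup_le (Subgroup.zpowers_le.2 (wperm_mem_Kb h.1.1.1.1.1.1.1.1))
    (Subgroup.zpowers_le.2 (wperm_mem_Kb h.1.1.1.1.1.1.1.2))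

theorem uSub_le : uSub ≤ Kb := sup_le eSub_le uPair_le

theorem isPGroup_zpowers_word {w : List ℕ} (h : wordEq (List.replicate 3 w).flatten [] = true) :
    IsPGroup 3 (Subgroup.zpowers (wperm gperm w)) := by
  have e := wordEq_spec h
  rw [wperm_flatten, List.map_replicate, List.prod_replicate] at e
  intro g
  obtain ⟨i, hi⟩ := Subgroup.mem_zpowers_iff.1 g.2
  refine ⟨1, Subtype.ext ?_⟩
  rw [pow_one, Subgroup.coe_pow, Subgroup.coe_one, ← hi, ← zpow_natCast, ← zpow_mul, mul_comm, zpow_mul,
    zpow_natCast, e]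
  exact one_zpow i

theorem isPGroup_uSub : IsPGroup 3 uSub := by
  have h := uChecks
  simp only [Bool.and_eq_true] at h
  obtain ⟨⟨⟨⟨⟨⟨-, h1⟩, h2⟩, hc⟩, -⟩, -⟩, -⟩ := h
  have hcomm : Commute (wperm gperm Data.uOne) (wperm gperm Data.uTwo) := by
    have := wordEq_spec hc
    rwa [wperm_append, wperm_append] at this
  have hn : Subgroup.zpowers (wperm gperm Data.uTwo) ≤
      Subgroup.normalizer (Subgroup.zpowers (wperm gperm Data.uOne) : Set (Equiv.Perm (Fin 275))) := by
    rw [Subgroup.zpowers_le, Subgroup.mem_normalizer_iff]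
    intro x
    refine ⟨fun hx => ?_, fun hx => ?_⟩
    · obtain ⟨i, rfl⟩ := Subgroup.mem_zpowers_iff.1 hx
      rw [((hcomm.zpow_left i).symm).eq, mul_inv_cancel_right]
      exact ⟨i, rfl⟩
    · obtain ⟨i, hi⟩ := Subgroup.mem_zpowers_iff.1 hx
      refine ⟨i, ?_⟩
      change wperm gperm Data.uOne ^ i = x
      rw [← mul_left_cancel_iff (a := wperm gperm Data.uTwo), ← mul_right_cancel_iff
        (a := (wperm gperm Data.uTwo)⁻¹), ← hi, ((hcomm.zpow_left i).symm).eq, mul_inv_cancel_right]
  exact isPGroup_eSub.to_sup_of_normal_left'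
    ((isPGroup_zpowers_word h1).to_sup_of_normal_left' (isPGroup_zpowers_word h2) hn)
    (uPair_le.trans Kb_le_normalizer)

theorem uGens_mem : ∀ w ∈ uGens, wperm gperm w ∈ uSub := by
  intro w hw
  rcases List.mem_append.1 hw with h | h
  · obtain ⟨i, hi, rfl⟩ := List.mem_map.1 h
    rw [wperm_singleton]
    exact Subgroup.mem_sup_left (Subgroup.subset_closure
      (Set.mem_image_of_mem gperm (show i ∈ {k | k ∈ Data.eGens} from hi)))
  · simp only [List.mem_cons, List.not_mem_nil, or_false] at h
    rcases h with rfl | rfl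
    · exact Subgroup.mem_sup_right (Subgroup.mem_sup_left (Subgroup.mem_zpowers _))
    · exact Subgroup.mem_sup_right (Subgroup.mem_sup_right (Subgroup.mem_zpowers _))

/-- A subgroup of order 29160 containing the three-subgroup is the stabiliser of the two points. -/
theorem eq_Kb_of_le {J : Subgroup (Equiv.Perm (Fin 275))} (hJ : J ≤ Kp) (hc : Nat.card J = 29160)
    (hU : uSub ≤ J) : J = Kb := by
  have hb : b0 ∈ maskSet Data.nearMask := orbit_b0 ▸ mem_orbit_self b0
  set O := orbit J b0 with hOdef
  have hOR : O ⊆ maskSet Data.nearMask := orbit_subset_near hJ hb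
  have hinv : ∀ g ∈ uSub, ∀ x ∈ O, g x ∈ O := by
    rintro g hg _ ⟨t, rfl⟩
    exact ⟨⟨g, hU hg⟩ * t, rfl⟩
  have h := uChecks
  simp only [Bool.and_eq_true, List.all_eq_true, List.mem_range] at h
  obtain ⟨⟨⟨-, hcov⟩, hlen⟩, hall⟩ := h
  obtain ⟨s, hs, hsO⟩ := exists_selMask uGens_mem hcov hinv hOR
  rw [Nat.eq_of_beq_eq_true hlen] at hs
  have hcount : maskCount 275 (selMask tblT uGens Data.uOrbits s) = O.ncard := by rw [hsO, ncard_maskSet]
  have horb := ncard_orbit_mul_stabIn J b0
  rw [hc, ← hOdef, ← hcount] at horb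
  have h25 : Nat.testBit (selMask tblT uGens Data.uOrbits s) 25 = true := by
    have : b0 ∈ O := mem_orbit_self b0
    rwa [hsO] at this
  have := hall s hs
  rw [h25] at this
  simp only [Bool.not_true, Bool.false_or, Bool.or_eq_true, Bool.not_eq_true'] at this
  have hle : stabIn J b0 ≤ Kb := fun g hg => ⟨hJ hg.1, hg.2⟩
  rcases this with (h1 | h4) | hbad
  · -- the point is fixed
    rw [Nat.eq_of_beq_eq_true h1, one_mul] at horb
    have e1 : stabIn J b0 = J := Subgroup.eq_of_le_of_card_ge inf_le_left (by rw [hc, horb])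
    have e2 : stabIn J b0 = Kb := Subgroup.eq_of_le_of_card_ge hle (by rw [natCard_Kb, horb])
    rw [← e1, e2]
  · exfalso
    rw [Nat.eq_of_beq_eq_true h4] at horb
    haveI : Fact (Nat.Prime 5) := ⟨by norm_num⟩
    obtain ⟨k, hk, hconj⟩ := exists_conj_le' (p := 5) (m := 4) hle (Subgroup.zpowers_le.2 x5p_mem)
      isPGroup_x5p (by rw [natCard_Kb]; omega) (by norm_num)
    set z := k * x5p * k⁻¹ with hz
    have hzJ : z ∈ stabIn J b0 := hconj _ (Subgroup.mem_zpowers _)
    have hzfix : ∀ y ∈ O, z y = y := by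
      intro y hy
      have hz5 : z ^ 5 = 1 := by
        rw [hz, conj_pow, show x5p ^ 5 = 1 from orderOf_x5p ▸ pow_orderOf_eq_one x5p, mul_one, mul_inv_cancel]
      by_contra hne
      -- the five images of the point are distinct and avoid the fixed point
      have hinj : Set.InjOn (fun i : ℕ => (z ^ i) y) (Finset.range 5 : Set ℕ) := by
        have key : ∀ d, 0 < d → d < 5 → (z ^ d) y ≠ y := by
          intro d hd hd5 he
          have hcop : Nat.Coprime d 5 :=
            ((Nat.Prime.coprime_iff_not_dvd (by norm_num)).2 (fun hh => by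
              have := Nat.le_of_dvd hd hh; omega)).symm
          obtain ⟨m, hm⟩ := exists_pow_eq_self_of_coprime (x := z)
            (Nat.Coprime.coprime_dvd_right (orderOf_dvd_of_pow_eq_one hz5) hcop)
          refine hne ?_
          conv_lhs => rw [← hm]
          exact MulAction.mem_stabilizer_iff.1
            (Subgroup.pow_mem (stabilizer (Equiv.Perm (Fin 275)) y) he m)
        intro i hi j hj e
        simp only [Finset.coe_range, Set.mem_Iio] at hi hj
        simp only at e
        rcases Nat.lt_trichotomy i j with hlt | heq | hgt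
        · refine absurd ((z ^ i).injective ?_) (key (j - i) (by omega) (by omega))
          rw [← Equiv.Perm.mul_apply, ← pow_add, show i + (j - i) = j by omega]
          exact e.symm
        · exact heq
        · refine absurd ((z ^ j).injective ?_) (key (i - j) (by omega) (by omega))
          rw [← Equiv.Perm.mul_apply, ← pow_add, show j + (i - j) = i by omega]
          exact e
      have hsub : (fun i : ℕ => (z ^ i) y) '' (Finset.range 5 : Set ℕ) ⊆ O := by
        rintro _ ⟨i, -, rfl⟩
        obtain ⟨t, rfl⟩ := hy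
        exact ⟨⟨z ^ i, pow_mem hzJ.1 i⟩ * t, rfl⟩
      have := Set.ncard_le_ncard hsub
      rw [hinj.ncard_image, Set.ncard_coe_finset, Finset.card_range, ← hcount, Nat.eq_of_beq_eq_true h4] at this
      omega
    have hsub : (k⁻¹ : Equiv.Perm (Fin 275)) '' O ⊆ maskSet Data.nearMask := by
      rintro _ ⟨y, hy, rfl⟩
      have hy' := hOR hy
      rw [← orbit_b0] at hy' ⊢
      obtain ⟨t, rfl⟩ := hy'
      exact ⟨⟨k⁻¹, inv_mem hk.1⟩ * t, rfl⟩
    have := x5p_fixed_le hsub (by
      rintro _ ⟨y, hy, rfl⟩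
      have h1 := hzfix y hy
      rw [hz, Equiv.Perm.mul_apply, Equiv.Perm.mul_apply] at h1
      apply k.injective
      rw [h1, Equiv.Perm.inv_def, Equiv.apply_symm_apply])
    rw [Set.ncard_image_of_injective _ (Equiv.injective _), ← hcount, Nat.eq_of_beq_eq_true h4] at this
    omega
  · exfalso
    have hdvd : maskCount 275 (selMask tblT uGens Data.uOrbits s) ∣ 29160 := Dvd.intro _ horb
    rw [Nat.mod_eq_zero_of_dvd hdvd, Nat.beq_refl] at hbad
    exact Bool.noConfusion hbad

/-- Subgroups of index 112 fix a point of the near orbit. -/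
theorem class_near {J : Subgroup (Equiv.Perm (Fin 275))} (hJ : J ≤ Kp) (hc : Nat.card J = 29160) :
    ∃ x ∈ maskSet Data.nearMask, J = stabIn Kp x := by
  haveI : Fact (Nat.Prime 3) := ⟨by norm_num⟩
  obtain ⟨g, hg, hconj⟩ := exists_conj_le' (p := 3) (m := 112) hJ (uSub_le.trans inf_le_left)
    isPGroup_uSub (by rw [natCard_Kp, hc]) (by norm_num)
  set J' := J.comap (MulAut.conj g).toMonoidHom with hJ'
  have hJ'le : J' ≤ Kp := by
    intro u hu
    have h1 : g * u * g⁻¹ ∈ Kp := hJ hu
    have := mul_mem (mul_mem (inv_mem hg) h1) hg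
    simpa [mul_assoc] using this
  have hcard : Nat.card J' = 29160 := by
    rw [← hc]
    exact Nat.card_congr ((MulAut.conj g).toEquiv.subtypeEquiv fun _ => Iff.rfl)
  have he := eq_Kb_of_le hJ'le hcard fun u hu => hconj u hu
  refine ⟨g b0, ?_, ?_⟩
  · rw [← orbit_b0]
    exact ⟨⟨g, hg⟩, rfl⟩
  · ext u
    have hu : u = g * (g⁻¹ * u * g) * g⁻¹ := by group
    constructor
    · intro h
      have h1 : g⁻¹ * u * g ∈ J' := by
        show g * (g⁻¹ * u * g) * g⁻¹ ∈ J
        rw [← hu]; exact h
      rw [he] at h1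
      refine ⟨hJ h, ?_⟩
      have h2 : g⁻¹ (u (g b0)) = b0 := h1.2
      change u (g b0) = g b0
      conv_rhs => rw [← h2, Equiv.Perm.inv_def, Equiv.apply_symm_apply]
    · rintro ⟨h1, h2⟩
      have h3 : g⁻¹ * u * g ∈ Kb := by
        refine mem_stabIn.2 ⟨mul_mem (mul_mem (inv_mem hg) h1) hg, ?_⟩
        change g⁻¹ (u (g b0)) = b0
        rw [show u (g b0) = g b0 from h2, Equiv.Perm.inv_def, Equiv.symm_apply_apply]
      rw [← he] at h3
      rw [hu]
      exact h3

end CfsgLib.RankThreeMcL
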