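import Cfsg.Agent.Lib.RankThreeMcL.Assemble
import Cfsg.Agent.Lib.RankThreeMcL.Near
import Cfsg.Agent.Lib.RankThreeMcL.Far

/-!
A transitive group on 275 points with point stabiliser `PSU_4(3)` and suborbits of sizes 112 and 162 is
the McLaughlin group.
-/

set_option autoImplicit false
set_option linter.style.haveILetI false

namespace CfsgLib.RankThreeMcL

open Cfsg CfsgLib.RankThreeRecog MulAction
open CfsgLib.SporRecognition.CosetCert (field)

variable {W : Type*} {G : Subgroup (Equiv.Perm W)} {a : W}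

/-- The elements of the model stabiliser whose images fix a point. -/
noncomputable def pullStab (φ : Kp ≃* stabilizer G a) (x : W) : Subgroup (Equiv.Perm (Fin 275)) :=
  ((stabilizer (stabilizer G a) x).comap φ.toMonoidHom).map Kp.subtype

theorem pullStab_le (φ : Kp ≃* stabilizer G a) (x : W) : pullStab φ x ≤ Kp := by
  rintro _ ⟨g, -, rfl⟩
  exact g.2

theorem mem_pullStab (φ : Kp ≃* stabilizer G a) (x : W) (g : Kp) :
    (g : Equiv.Perm (Fin 275)) ∈ pullStab φ x ↔ φ g • x = x :=
  ⟨fun ⟨_, h, e⟩ => Subtype.ext e ▸ h, fun h => ⟨g, h, rfl⟩⟩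

theorem natCard_pullStab [Finite W] (φ : Kp ≃* stabilizer G a) (x : W) {n : ℕ}
    (hx : (orbit (stabilizer G a) x).ncard = n) : n * Nat.card (pullStab φ x) = 3265920 := by
  haveI : Finite (stabilizer G a) := Finite.of_equiv _ φ.toEquiv
  have h := ncard_orbit_mul_stab (stabilizer G a) x
  rw [hx, ← Nat.card_congr φ.toEquiv, natCard_Kp] at h
  rw [← h]
  congr 1
  refine (Nat.card_congr (((stabilizer (stabilizer G a) x).comap φ.toMonoidHom).equivMapOfInjective _
    Subtype.val_injective).toEquiv).symm.trans ?_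
  exact Nat.card_congr
    { toFun := fun g => ⟨φ g.1, g.2⟩
      invFun := fun s => ⟨φ.symm s.1, by
        show φ (φ.symm s.1) • x = x
        rw [MulEquiv.apply_symm_apply]
        exact s.2⟩
      left_inv := fun g => Subtype.ext (φ.symm_apply_apply _)
      right_inv := fun s => Subtype.ext (φ.apply_symm_apply _) }

/-- Moving the point in its orbit moves the subgroup fixing it. -/
theorem fix_move (φ : Kp ≃* stabilizer G a) {p : W} {k : Kp} {y z : Fin 275} (hk : (k : Equiv.Perm (Fin 275)) z = y)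
    (h : ∀ g : Kp, φ g • p = p ↔ (g : Equiv.Perm (Fin 275)) y = y) (g : Kp) :
    φ g • (φ k⁻¹ • p) = φ k⁻¹ • p ↔ (g : Equiv.Perm (Fin 275)) z = z := by
  rw [map_inv, ← inv_smul_eq_iff, inv_inv, smul_smul, smul_smul, ← map_inv, ← map_mul, ← map_mul, h,
    Subgroup.coe_mul, Subgroup.coe_mul, InvMemClass.coe_inv, ← hk, Equiv.Perm.mul_apply,
    Equiv.Perm.mul_apply, Equiv.Perm.inv_def, Equiv.symm_apply_apply, Equiv.apply_eq_iff_eq]

theorem edge_congr {b b' : W} (h : b' ∈ orbit (stabilizer G a) b) (x y : W) :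
    Edge G a b' x y ↔ Edge G a b x y := by
  obtain ⟨t, rfl⟩ := h
  constructor
  · rintro ⟨g, h1, h2⟩
    refine ⟨g * t, by rw [mul_smul, show (t : G) • a = a from t.2, h1], ?_⟩
    rw [mul_smul]
    exact h2
  · rintro ⟨g, h1, h2⟩
    refine ⟨g * (t : G)⁻¹, ?_, ?_⟩
    · rw [mul_smul, show (t : G)⁻¹ • a = a from inv_smul_eq_iff.2 t.2.symm, h1]
    · show (g * (t : G)⁻¹) • ((t : G) • b) = y
      rw [mul_smul, inv_smul_smul, h2]

theorem half_moved : Nat.testBit GraphData.cbMask0 25 = true ∧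
    Nat.testBit GraphData.cbMask0 (field Data.sigma 9 25) = false := by decide +kernel

/-- Recognition of the McLaughlin group on 275 points. -/
theorem nonempty_iso_of_rank_three {F : Type*} [Field F] [Fintype F] (hF : Fintype.card F = 9)
    [Fintype W] [DecidableEq W] (hW : Fintype.card W = 275) [IsPretransitive G W]
    (e : stabilizer G a ≃* Cfsg.PSU 4 F 3) {b c : W}
    (hb : (orbit (stabilizer G a) b).ncard = 112) (hc : (orbit (stabilizer G a) c).ncard = 162) :
    Nonempty (G ≃* mclS) := by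
  obtain ⟨η⟩ := nonempty_Kp_psu hF
  have φK : Kp ≃* stabilizer G a := η.trans e.symm
  have hsub : ∀ b' ∈ orbit (stabilizer G a) b, ∀ c' ∈ orbit (stabilizer G a) c,
      Sub G a b' c' 275 112 162 := fun b' hb' c' hc' =>
    { finG := inferInstance
      finV := inferInstance
      pre := inferInstance
      card := by rw [Nat.card_eq_fintype_card, hW]
      near := by rw [orbit_eq_iff.2 hb', hb]
      far := by rw [orbit_eq_iff.2 hc', hc]
      ne := by norm_num
      sum := by norm_num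
      kpos := by norm_num
      lpos := by norm_num
      noBlock := by norm_num }
  -- the stabiliser of the far point
  obtain ⟨x, hx, hcase⟩ := class_far (pullStab_le φK c) (by
    have := natCard_pullStab φK c hc; omega)
  obtain ⟨φ1, hφ1⟩ : ∃ φ1 : Kp ≃* stabilizer G a,
      ∀ g : Kp, φ1 g • c = c ↔ (g : Equiv.Perm (Fin 275)) x = x := by
    rcases hcase with h | h
    · exact ⟨φK, fun g => (mem_pullStab φK c g).symm.trans (h g)⟩
    · refine ⟨alpha.symm.trans φK, fun g => ?_⟩
      rw [MulEquiv.trans_apply, ← mem_pullStab, h, MulEquiv.apply_symm_apply]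
  obtain ⟨k, hk⟩ : x ∈ orbit Kp c0 := orbit_c0 ▸ hx
  have hfixc := fix_move φ1 (z := c0) hk hφ1
  -- the stabiliser of the near point
  obtain ⟨y, hy, hJ⟩ := class_near (pullStab_le φ1 b) (by
    have := natCard_pullStab φ1 b hb; omega)
  obtain ⟨l, hl⟩ : y ∈ orbit Kp b0 := orbit_b0 ▸ hy
  have hfixb := fix_move φ1 (p := b) (z := b0) hl fun g => by
    rw [← mem_pullStab, hJ, mem_stabIn]
    exact ⟨fun h => h.2, fun h => ⟨g.2, h⟩⟩
  set c' := φ1 k⁻¹ • c
  set b' := φ1 l⁻¹ • b
  have hb' : b' ∈ orbit (stabilizer G a) b := ⟨_, rfl⟩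
  have hc' : c' ∈ orbit (stabilizer G a) c := ⟨_, rfl⟩
  have hG := hsub b' hb' c' hc'
  let φS : stabilizer mclS a0 ≃* stabilizer G a := stabEquiv.trans φ1
  obtain ⟨ψ, pa, pb, pc, hψ⟩ := exists_map φS sub_mcl hG (fun s => hfixb (stabEquiv s))
    (fun s => hfixc (stabEquiv s))
  by_cases hne : ψ ⁻¹' farNear G a b' c' = maskSet GraphData.cbMask0
  swap
  · exact nonempty_iso_mclS G a b' c' hG φS ψ pa pb pc hψ hne
  -- the other half: compose with the permutation normalising the stabiliser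
  set b'' := ψ (sigmaPerm b0)
  obtain ⟨t, ht⟩ : sigmaPerm b0 ∈ orbit (stabilizer mclS a0) b0 := by
    rw [orbit_stab_eq, orbit_b0]
    exact (sigma_swap (mem_maskSet.1 (orbit_b0 ▸ mem_orbit_self b0))).1
  have hb'' : b'' ∈ orbit (stabilizer G a) b' := ⟨φS t, by
    show φS t • b' = ψ (sigmaPerm b0)
    rw [← pb, ← hψ]
    exact congrArg ψ ht⟩
  have hG2 := hsub b'' (orbit_eq_iff.2 hb' ▸ hb'') c' hc'
  refine nonempty_iso_mclS G a b'' c' hG2 ((stabEquiv.trans beta).trans φ1) (sigmaPerm.trans ψ)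
    (by rw [Equiv.trans_apply, sigma_a0, pa]) (Equiv.trans_apply ..) (by rw [Equiv.trans_apply, sigma_c0, pc])
    (fun s u => ?_) fun heq => ?_
  · rw [Equiv.trans_apply, Equiv.trans_apply]
    have h1 : sigmaPerm (s • u) = stabEquiv.symm (beta (stabEquiv s)) • sigmaPerm u := by
      show sigmaPerm (((s : mclS) : Equiv.Perm (Fin 275)) u) =
        ((beta (stabEquiv s) : Kp) : Equiv.Perm (Fin 275)) (sigmaPerm u)
      rw [beta_apply, Equiv.Perm.mul_apply, Equiv.Perm.mul_apply, Equiv.Perm.inv_def, Equiv.symm_apply_apply]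
      rfl
    rw [h1, hψ]
    congr 1
  · have hF : farNear G a b'' c' = farNear G a b' c' := by
      ext w
      simp only [farNear, Set.mem_ofPred_eq, edge_congr hb'', orbit_eq_iff.2 hb'']
    rw [hF] at heq
    obtain ⟨h1, h2⟩ := half_moved
    have h3 : b0 ∈ (sigmaPerm.trans ψ) ⁻¹' farNear G a b' c' := by
      rw [heq]; exact mem_maskSet.2 h1
    have h4 : sigmaPerm b0 ∈ maskSet GraphData.cbMask0 := by rw [← hne]; exact h3
    rw [mem_maskSet, sigmaPerm, mkPerm_val, show ((b0 : Fin 275) : ℕ) = 25 from rfl, h2] at h4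
    exact Bool.noConfusion h4

end CfsgLib.RankThreeMcL
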