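import Cfsg.Agent.Lib.RankThreeMcL.Model
import Mathlib.GroupTheory.Sylow

/-!
The stabiliser of two points at inner product 8: its normal subgroup of order 81, an element of order 5,
and tools for the classification of subgroups of small index.
-/

set_option autoImplicit false
set_option maxRecDepth 100000
set_option Elab.async false
set_option linter.style.haveILetI false

namespace CfsgLib.RankThreeMcL

open Cfsg CfsgLib.RankThreeRecog MulAction
open CfsgLib.SporRecognition.CosetCert (allBelow allBelow_spec field)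
open scoped Pointwise

/-- Two words are equal on all points. -/
noncomputable def wordEq (w w' : List ℕ) : Bool :=
  allBelow 9 275 fun u => Nat.beq (ev tblT w u) (ev tblT w' u)

theorem wordEq_spec {w w' : List ℕ} (h : wordEq w w' = true) : wperm gperm w = wperm gperm w' :=
  Equiv.ext fun u => Fin.ext (by
    rw [ev_eq describes, ev_eq describes]; exact Nat.eq_of_beq_eq_true (allBelow_spec h u u.2))

theorem wperm_ne {w w' : List ℕ} {u : ℕ} (hu : u < 275) (h : Nat.beq (ev tblT w u) (ev tblT w' u) = false) :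
    wperm gperm w ≠ wperm gperm w' := fun e => by
  have : ev tblT w u = ev tblT w' u := by
    rw [← ev_eq describes w ⟨u, hu⟩, ← ev_eq describes w' ⟨u, hu⟩, e]
  rw [this, Nat.beq_refl] at h
  exact Bool.noConfusion h

/-! ### Group theory -/

/-- A subgroup of index prime to `p` contains, up to conjugation, every `p`-subgroup. -/
theorem exists_conj_le {G : Type*} [Group G] [Finite G] {p : ℕ} [Fact p.Prime] {J U : Subgroup G}
    (hU : IsPGroup p U) (hJ : ¬ p ∣ J.index) : ∃ g : G, ∀ u ∈ U, g * u * g⁻¹ ∈ J := by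
  classical
  obtain ⟨P⟩ : Nonempty (Sylow p J) := inferInstance
  have hP : Nat.card ((P : Subgroup J).map J.subtype) = p ^ (Nat.card G).factorization p := by
    rw [Nat.card_congr ((P : Subgroup J).equivMapOfInjective _ J.subtype_injective).symm.toEquiv,
      P.card_eq_multiplicity]
    congr 1
    rw [← Subgroup.card_mul_index J, Nat.factorization_mul Nat.card_pos.ne' Subgroup.index_ne_zero_of_finite,
      Finsupp.add_apply, Nat.factorization_eq_zero_of_not_dvd hJ, add_zero]
  obtain ⟨Q, hQ⟩ := hU.exists_le_sylow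
  obtain ⟨g, hg⟩ := MulAction.exists_smul_eq G Q (Sylow.ofCard _ hP)
  refine ⟨g, fun u hu => ?_⟩
  have h1 : MulAut.conj g • u ∈ ((g • Q : Sylow p G) : Subgroup G) := by
    rw [Sylow.coe_subgroup_smul]
    exact Subgroup.smul_mem_pointwise_smul u _ _ (hQ hu)
  rw [hg, Sylow.coe_ofCard] at h1
  obtain ⟨j, -, hj⟩ := h1
  rw [MulAut.smul_def, MulAut.conj_apply] at hj
  rw [← hj]
  exact j.2

/-- The conjugate of a subgroup of `H` which contains a given `p`-subgroup. -/
theorem exists_conj_le' {G : Type*} [Group G] [Finite G] {p : ℕ} [Fact p.Prime] {H J U : Subgroup G}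
    (hJH : J ≤ H) (hUH : U ≤ H) (hU : IsPGroup p U) {m : ℕ} (hm : Nat.card J * m = Nat.card H)
    (hp : ¬ p ∣ m) : ∃ g ∈ H, ∀ u ∈ U, g * u * g⁻¹ ∈ J := by
  have hi : (J.subgroupOf H).index = m := by
    have h := Subgroup.card_mul_index (J.subgroupOf H)
    rw [Nat.card_congr (Subgroup.subgroupOfEquivOfLe hJH).toEquiv, ← hm] at h
    exact Nat.eq_of_mul_eq_mul_left Nat.card_pos h
  obtain ⟨g, hg⟩ := exists_conj_le (p := p) (J := J.subgroupOf H)
    (U := U.subgroupOf H) (hU.of_equiv (Subgroup.subgroupOfEquivOfLe hUH).symm) (by rwa [hi])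
  exact ⟨g, g.2, fun u hu => hg ⟨u, hUH hu⟩ hu⟩

/-- The stabiliser of a point inside a subgroup. -/
noncomputable def stabIn (L : Subgroup (Equiv.Perm (Fin 275))) (x : Fin 275) :
    Subgroup (Equiv.Perm (Fin 275)) := L ⊓ stabilizer (Equiv.Perm (Fin 275)) x

theorem mem_stabIn {L : Subgroup (Equiv.Perm (Fin 275))} {x : Fin 275} {g : Equiv.Perm (Fin 275)} :
    g ∈ stabIn L x ↔ g ∈ L ∧ g x = x := Iff.rfl

theorem ncard_orbit_mul_stabIn (L : Subgroup (Equiv.Perm (Fin 275))) (x : Fin 275) :
    (orbit L x).ncard * Nat.card (stabIn L x) = Nat.card L := by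
  rw [← ncard_orbit_mul_stab L x]
  congr 1
  exact Nat.card_congr
    { toFun := fun s => ⟨⟨s.1, s.2.1⟩, s.2.2⟩
      invFun := fun s => ⟨s.1.1, s.1.2, s.2⟩
      left_inv := fun _ => rfl
      right_inv := fun _ => rfl }

theorem orbit_subset_near {L : Subgroup (Equiv.Perm (Fin 275))} (hL : L ≤ Kp) {x : Fin 275}
    (hx : x ∈ maskSet Data.nearMask) : orbit L x ⊆ maskSet Data.nearMask := by
  rw [← orbit_b0] at hx ⊢
  rw [← orbit_eq_iff.2 hx]
  rintro _ ⟨g, rfl⟩
  exact ⟨⟨g.1, hL g.2⟩, rfl⟩

/-! ### Invariant sets from parts -/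

/-- The union of the selected parts. -/
noncomputable def selMask (T : ℕ → ℕ → ℕ) (gens : List (List ℕ))
    (parts : List (ℕ × ℕ × List (ℕ × ℕ × ℕ))) : ℕ → ℕ :=
  List.rec (fun _ => 0) (fun p _ ih s =>
    bif Nat.testBit s 0 then Nat.lor (growMask T gens p.1 p.2.2) (ih (s / 2)) else ih (s / 2)) parts

/-- The parts cover a region. -/
noncomputable def partsCover (T : ℕ → ℕ → ℕ) (gens : List (List ℕ))
    (parts : List (ℕ × ℕ × List (ℕ × ℕ × ℕ))) (R : ℕ) : Bool :=
  (parts.all fun p => Nat.blt p.1 275) &&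
    allBelow 9 275 fun u => !(Nat.testBit R u) ||
      parts.any fun p => Nat.testBit (growMask T gens p.1 p.2.2) u

theorem selMask_spec (T : ℕ → ℕ → ℕ) (gens : List (List ℕ)) :
    ∀ (parts : List (ℕ × ℕ × List (ℕ × ℕ × ℕ))) (P : ℕ × ℕ × List (ℕ × ℕ × ℕ) → Prop),
      ∃ s < 2 ^ parts.length, ∀ i, Nat.testBit (selMask T gens parts s) i = true ↔
        ∃ p ∈ parts, P p ∧ Nat.testBit (growMask T gens p.1 p.2.2) i = true
  | [], P => ⟨0, by simp, fun i => by simp [selMask]⟩
  | p :: parts, P => by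
    classical
    obtain ⟨s, hs, hspec⟩ := selMask_spec T gens parts P
    have hlt : ∀ b < 2, 2 * s + b < 2 ^ (p :: parts).length := fun b hb => by
      rw [List.length_cons, pow_succ]; omega
    by_cases hp : P p
    · refine ⟨2 * s + 1, hlt 1 (by norm_num), fun i => ?_⟩
      change Nat.testBit (bif Nat.testBit (2 * s + 1) 0 then
        growMask T gens p.1 p.2.2 ||| selMask T gens parts ((2 * s + 1) / 2)
        else selMask T gens parts ((2 * s + 1) / 2)) i = true ↔ _
      rw [Nat.testBit_zero, show (2 * s + 1) / 2 = s by omega, show (2 * s + 1) % 2 = 1 by omega]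
      simp only [decide_true, cond_true, Nat.testBit_or, Bool.or_eq_true, hspec, List.mem_cons,
        exists_eq_or_imp, hp, true_and]
    · refine ⟨2 * s, hlt 0 (by norm_num), fun i => ?_⟩
      change Nat.testBit (bif Nat.testBit (2 * s) 0 then
        growMask T gens p.1 p.2.2 ||| selMask T gens parts (2 * s / 2)
        else selMask T gens parts (2 * s / 2)) i = true ↔ _
      rw [Nat.testBit_zero, show 2 * s / 2 = s by omega, show 2 * s % 2 = 0 by omega]
      simp only [zero_ne_one, decide_false, cond_false, hspec, List.mem_cons, exists_eq_or_imp, hp,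
        false_and, false_or]

theorem exists_selMask {gens : List (List ℕ)} {parts : List (ℕ × ℕ × List (ℕ × ℕ × ℕ))} {R : ℕ}
    {L : Subgroup (Equiv.Perm (Fin 275))} (hL : ∀ w ∈ gens, wperm gperm w ∈ L)
    (hcov : partsCover tblT gens parts R = true) {O : Set (Fin 275)}
    (hO : ∀ g ∈ L, ∀ x ∈ O, g x ∈ O) (hR : O ⊆ maskSet R) :
    ∃ s < 2 ^ parts.length, O = maskSet (selMask tblT gens parts s) := by
  simp only [partsCover, Bool.and_eq_true, List.all_eq_true, Nat.blt_eq] at hcov
  obtain ⟨s, hs, hspec⟩ := selMask_spec tblT gens parts fun p => ∃ h : p.1 < 275, (⟨p.1, h⟩ : Fin 275) ∈ O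
  refine ⟨s, hs, Set.ext fun y => ?_⟩
  rw [mem_maskSet, hspec]
  constructor
  · intro hy
    have := allBelow_spec hcov.2 y y.2
    rw [mem_maskSet.1 (hR hy)] at this
    simp only [Bool.not_true, Bool.false_or, List.any_eq_true] at this
    obtain ⟨p, hp, hpy⟩ := this
    refine ⟨p, hp, ⟨hcov.1 p hp, ?_⟩, hpy⟩
    obtain ⟨z, hz, hzO⟩ := growMask_spec describes tblT_lt hL (hcov.1 p hp) y hpy
    rw [Fin.ext hz] at hzO
    obtain ⟨g, hg⟩ := MulAction.mem_orbit_symm.1 hzO
    rw [← hg]
    exact hO g g.2 y hy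
  · rintro ⟨p, hp, ⟨hlt, hpO⟩, hpy⟩
    obtain ⟨z, hz, g, hg⟩ := growMask_spec describes tblT_lt hL hlt y hpy
    rw [← Fin.ext hz, ← hg]
    exact hO g g.2 _ hpO

/-! ### The stabiliser of two points -/

/-- The stabiliser of the two points. -/
noncomputable abbrev Kb : Subgroup (Equiv.Perm (Fin 275)) := stabIn Kp b0

theorem natCard_Kb : Nat.card Kb = 29160 := by
  have h := ncard_orbit_mul_stabIn Kp b0
  rw [orbit_b0, ncard_near, natCard_Kp] at h
  change 112 * Nat.card Kb = _ at h
  omega

/-- Indices of tables in the stabiliser of two points. -/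
def inKb (i : ℕ) : Bool := Nat.ble 121 i && Nat.blt i 210

/-- All letters lie in the stabiliser of two points. -/
def wordInB (w : List ℕ) : Bool := w.all inKb

theorem bKnown_ok : (kDefsOk (Data.defs.filter fun p => Nat.ble 123 p.1) Data.bGens &&
    ((List.range 210).all fun i => !(inKb i) ||
      (Data.bGens ++ (Data.defs.filter fun p => Nat.ble 123 p.1).map Prod.fst).contains i) &&
    (Data.bGens.all fun i => Nat.beq (tblT i 25) 25 && Nat.beq (tblT i 0) 0)) = true := by decide +kernel

theorem inKb_span {i : ℕ} (h : inKb i = true) :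
    gperm i ∈ Subgroup.closure (gperm '' {k | k ∈ Data.bGens}) := by
  have hk := bKnown_ok
  simp only [Bool.and_eq_true, List.all_eq_true, List.mem_range] at hk
  have hi : i < 210 := by
    simp only [inKb, Bool.and_eq_true, Nat.blt_eq] at h
    exact h.2
  have := hk.1.2 i hi
  rw [h] at this
  exact kDefs_spec _ _ hk.1.1 (fun j hj => Subgroup.subset_closure (Set.mem_image_of_mem gperm (show j ∈ {k | k ∈ Data.bGens} from hj))) i (by simpa using this)

theorem bSpan_le : Subgroup.closure (gperm '' {k | k ∈ Data.bGens}) ≤ Kb := by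
  rw [Subgroup.closure_le]
  rintro _ ⟨i, hi, rfl⟩
  have hk := bKnown_ok
  simp only [Bool.and_eq_true, List.all_eq_true] at hk
  exact ⟨⟨gperm_mem i, Fin.ext ((describes i a0).trans (Nat.eq_of_beq_eq_true (hk.2 i hi).2))⟩,
    Fin.ext ((describes i b0).trans (Nat.eq_of_beq_eq_true (hk.2 i hi).1))⟩

theorem inKb_mem {i : ℕ} (h : inKb i = true) : gperm i ∈ Kb := bSpan_le (inKb_span h)

theorem wperm_mem_Kb {w : List ℕ} (h : wordInB w = true) : wperm gperm w ∈ Kb :=
  wperm_mem fun i hi => inKb_mem (List.all_eq_true.1 h i hi)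

theorem bChain_ok : (chainOK tblT 275 (cnvLv Data.bChain) [] Data.bOrbs &&
    ((cnvLv Data.bChain).all fun l => l.2.1.all wordInB) && Nat.beq Data.bOrbs.prod 29160) = true := by
  decide +kernel

theorem bSpan_eq : Subgroup.closure (gperm '' {k | k ∈ Data.bGens}) = Kb := by
  have h := bChain_ok
  simp only [Bool.and_eq_true, List.all_eq_true, wordInB] at h
  refine Subgroup.eq_of_le_of_card_ge bSpan_le ?_
  rw [natCard_Kb, ← Nat.eq_of_beq_eq_true h.2]
  exact chain_spec describes tblT_lt _ _ _ _ h.1.1 fun l hl w hw _ =>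
    wperm_mem fun i hi => inKb_span (h.1.2 l hl w hw i hi)

/-! ### The normal subgroup of order 81 -/

/-- The normal subgroup of order 81. -/
noncomputable def eSub : Subgroup (Equiv.Perm (Fin 275)) :=
  Subgroup.closure (gperm '' {k | k ∈ Data.eGens})

/-- The listed element of the normal subgroup. -/
noncomputable def eIdx (k : ℕ) : ℕ := Data.eList.getD k 0

theorem eChecks : ((kDefsOk (Data.defs.filter fun p => Nat.ble 129 p.1) Data.eGens &&
    ((List.range 81).all fun k => inKb (eIdx k) &&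
      (Data.eGens ++ (Data.defs.filter fun p => Nat.ble 129 p.1).map Prod.fst).contains (eIdx k)) &&
    Data.eGens.all inKb) &&
    (wordEq [eIdx 0] [] && (List.range 81).all fun k => (List.range 4).all fun j =>
      Nat.blt ((Data.eClose.getD k []).getD j 81) 81 &&
        wordEq [eIdx k, Data.eGens.getD j 0] [eIdx ((Data.eClose.getD k []).getD j 81)]) &&
    ((List.range 2).all fun b => (List.range 4).all fun j =>
      Nat.blt ((Data.eNorm.getD b []).getD j 81) 81 &&
        wordEq [Data.bGens.getD b 0, Data.eGens.getD j 0]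
          [eIdx ((Data.eNorm.getD b []).getD j 81), Data.bGens.getD b 0]) &&
    ((List.range 81).all fun k => wordEq [eIdx k, eIdx k, eIdx k] []) &&
    decide (((List.range 81).map fun k => [26, 32, 39].map (tblT (eIdx k))).Nodup)) = true := by
  decide +kernel

theorem eIdx_mem {k : ℕ} (hk : k < 81) : gperm (eIdx k) ∈ eSub := by
  have h := eChecks
  simp only [Bool.and_eq_true, List.all_eq_true, List.mem_range] at h
  obtain ⟨⟨⟨⟨⟨⟨hd, hin⟩, -⟩, -⟩, -⟩, -⟩, -⟩ := h
  exact kDefs_spec _ _ hd (fun j hj => Subgroup.subset_closure (Set.mem_image_of_mem gperm (show j ∈ {k | k ∈ Data.eGens} from hj))) _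
    (by simpa using (hin k hk).2)

theorem mem_eSub {g : Equiv.Perm (Fin 275)} : g ∈ eSub ↔ ∃ k < 81, g = gperm (eIdx k) := by
  refine ⟨fun hg => ?_, fun ⟨k, hk, e⟩ => e ▸ eIdx_mem hk⟩
  have h := eChecks
  simp only [Bool.and_eq_true, List.all_eq_true, List.mem_range, Nat.blt_eq] at h
  obtain ⟨⟨⟨⟨-, hone, hclose⟩, -⟩, -⟩, -⟩ := h
  suffices ∀ k < 81, ∃ l < 81, gperm (eIdx k) * g = gperm (eIdx l) by
    obtain ⟨l, hl, e⟩ := this 0 (by norm_num)
    have e0 : gperm (eIdx 0) = 1 := by
      rw [← wperm_singleton (σ := gperm) (eIdx 0), wordEq_spec hone]; rfl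
    rw [e0, one_mul] at e
    exact ⟨l, hl, e⟩
  rw [eSub, ← Subgroup.mem_toSubmonoid, Subgroup.closure_toSubmonoid_of_finite] at hg
  induction hg using Submonoid.closure_induction with
  | mem g hg =>
    obtain ⟨i, hi, rfl⟩ := hg
    intro k hk
    obtain ⟨j, hj, rfl⟩ := List.getElem_of_mem hi
    have hj4 : j < 4 := hj
    obtain ⟨hlt, he⟩ := hclose k hk j hj4
    refine ⟨_, hlt, ?_⟩
    have := wordEq_spec he
    rw [List.getD_eq_getElem _ _ hj] at this
    simpa [wperm] using this
  | one => exact fun k hk => ⟨k, hk, mul_one _⟩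
  | mul a b _ _ iha ihb =>
    intro k hk
    obtain ⟨l, hl, e⟩ := iha k hk
    obtain ⟨m, hm, e'⟩ := ihb l hl
    exact ⟨m, hm, by rw [← mul_assoc, e, e']⟩

theorem eSub_le : eSub ≤ Kb := by
  intro g hg
  obtain ⟨k, hk, rfl⟩ := mem_eSub.1 hg
  have h := eChecks
  simp only [Bool.and_eq_true, List.all_eq_true, List.mem_range] at h
  obtain ⟨⟨⟨⟨⟨⟨-, hin⟩, -⟩, -⟩, -⟩, -⟩, -⟩ := h
  exact inKb_mem (hin k hk).1

theorem eIdx_injective {k l : ℕ} (hk : k < 81) (hl : l < 81) (e : gperm (eIdx k) = gperm (eIdx l)) :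
    k = l := by
  have h := eChecks
  simp only [Bool.and_eq_true, decide_eq_true_eq] at h
  have hn := List.nodup_iff_injective_get.1 h.2
  have := @hn ⟨k, by simp [hk]⟩ ⟨l, by simp [hl]⟩ (by
    simp only [List.get_eq_getElem, List.getElem_map, List.getElem_range]
    have he : ∀ u : Fin 275, tblT (eIdx k) u = tblT (eIdx l) u := fun u => by
      rw [← describes, ← describes, e]
    simp only [List.map_cons, List.map_nil, he ⟨26, by norm_num⟩, he ⟨32, by norm_num⟩,
      he ⟨39, by norm_num⟩])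
  simpa using this

theorem natCard_eSub : Nat.card eSub = 81 := by
  have hbij : Function.Bijective fun k : Fin 81 => (⟨gperm (eIdx k), eIdx_mem k.2⟩ : eSub) := by
    refine ⟨fun k l e => Fin.ext (eIdx_injective k.2 l.2 (congrArg Subtype.val e)), fun g => ?_⟩
    obtain ⟨k, hk, e⟩ := mem_eSub.1 g.2
    exact ⟨⟨k, hk⟩, Subtype.ext e.symm⟩
  rw [← Nat.card_eq_of_bijective _ hbij, Nat.card_fin]

theorem isPGroup_eSub : IsPGroup 3 eSub := by
  refine IsPGroup.of_card (n := 4) ?_
  rw [natCard_eSub]; norm_num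

theorem conj_mem_eSub {g e : Equiv.Perm (Fin 275)} (hg : g ∈ Kb) (he : e ∈ eSub) :
    g * e * g⁻¹ ∈ eSub := by
  suffices h : eSub ≤ eSub.comap (MulAut.conj g).toMonoidHom from h he
  rw [← bSpan_eq, ← Subgroup.mem_toSubmonoid, Subgroup.closure_toSubmonoid_of_finite] at hg
  induction hg using Submonoid.closure_induction with
  | mem g hg =>
    obtain ⟨i, hi, rfl⟩ := hg
    conv_lhs => rw [eSub]
    rw [Subgroup.closure_le]
    rintro _ ⟨j, hj, rfl⟩
    obtain ⟨b, hb, rfl⟩ := List.getElem_of_mem hi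
    obtain ⟨c, hc, rfl⟩ := List.getElem_of_mem hj
    have hb2 : b < 2 := hb
    have hc4 : c < 4 := hc
    have h := eChecks
    simp only [Bool.and_eq_true, List.all_eq_true, List.mem_range, Nat.blt_eq] at h
    obtain ⟨⟨⟨-, hnorm⟩, -⟩, -⟩ := h
    obtain ⟨hlt, he⟩ := hnorm b hb2 c hc4
    have := wordEq_spec he
    rw [List.getD_eq_getElem _ _ hb, List.getD_eq_getElem _ _ hc] at this
    simp only [wperm, mul_one] at this
    show gperm _ * gperm _ * (gperm _)⁻¹ ∈ eSub
    rw [this, mul_inv_cancel_right]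
    exact eIdx_mem hlt
  | one => intro x hx; simpa using hx
  | mul a b _ _ iha ihb =>
    intro x hx
    have := iha (ihb hx)
    simpa [mul_assoc] using this

theorem Kb_le_normalizer : Kb ≤ Subgroup.normalizer (eSub : Set (Equiv.Perm (Fin 275))) := by
  intro g hg
  rw [Subgroup.mem_normalizer_iff]
  intro h
  refine ⟨conj_mem_eSub hg, fun h' => ?_⟩
  have := conj_mem_eSub (inv_mem hg) h'
  simpa [mul_assoc] using this

/-! ### The element of order five -/

/-- An element of order five fixing both points. -/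
noncomputable def x5p : Equiv.Perm (Fin 275) := gperm Data.x5

theorem x5Checks : (inKb Data.x5 && inKb Data.y0 && wordEq (List.replicate 5 Data.x5) [] &&
    !(Nat.beq (tblT Data.x5 26) 26) &&
    ((List.range 80).all fun k => !(sameOn tblT [26, 32, 39] [Data.x5, eIdx (k + 1)] [eIdx (k + 1), Data.x5])) &&
    Nat.beq ((List.range 275).countP fun u => Nat.testBit Data.nearMask u && Nat.beq (tblT Data.x5 u) u) 2)
      = true := by decide +kernel

theorem x5p_mem : x5p ∈ Kb := by
  have h := x5Checks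
  simp only [Bool.and_eq_true] at h
  exact inKb_mem h.1.1.1.1.1

theorem orderOf_x5p : orderOf x5p = 5 := by
  have h := x5Checks
  simp only [Bool.and_eq_true, Bool.not_eq_true'] at h
  haveI : Fact (Nat.Prime 5) := ⟨by norm_num⟩
  refine orderOf_eq_prime ?_ fun e => ?_
  · have := wordEq_spec h.1.1.1.2
    simpa [List.replicate, wperm, pow_succ, mul_assoc, x5p] using this
  · have h2 := describes Data.x5 ⟨26, by norm_num⟩
    rw [show gperm Data.x5 = 1 from e, Equiv.Perm.one_apply] at h2
    have h3 := h.1.1.2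
    change Nat.beq (tblT Data.x5 26) 26 = false at h3
    rw [← h2, Nat.beq_refl] at h3
    exact Bool.noConfusion h3

theorem x5p_fpf {e : Equiv.Perm (Fin 275)} (he : e ∈ eSub) (hc : x5p * e = e * x5p) : e = 1 := by
  obtain ⟨k, hk, rfl⟩ := mem_eSub.1 he
  rcases Nat.eq_zero_or_pos k with rfl | hpos
  · have h := eChecks
    simp only [Bool.and_eq_true] at h
    rw [← wperm_singleton (σ := gperm) (eIdx 0), wordEq_spec h.1.1.1.2.1]; rfl
  exfalso
  have h := x5Checks
  simp only [Bool.and_eq_true, List.all_eq_true, List.mem_range, Bool.not_eq_true'] at h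
  have h1 := h.1.2 (k - 1) (by omega)
  rw [show k - 1 + 1 = k by omega] at h1
  have : sameOn tblT [26, 32, 39] [Data.x5, eIdx k] [eIdx k, Data.x5] = true := by
    rw [sameOn, List.all_eq_true]
    intro u hu
    have hu' : u < 275 := by
      simp only [List.mem_cons, List.not_mem_nil, or_false] at hu; omega
    rw [← ev_eq describes _ ⟨u, hu'⟩, ← ev_eq describes _ ⟨u, hu'⟩]
    simp only [wperm, mul_one]
    rw [show gperm Data.x5 = x5p from rfl, hc, Nat.beq_refl]
  rw [this] at h1
  exact Bool.noConfusion h1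

theorem x5p_fixed_le {S : Set (Fin 275)} (hS : S ⊆ maskSet Data.nearMask) (hf : ∀ y ∈ S, x5p y = y) :
    S.ncard ≤ 2 := by
  have h := x5Checks
  simp only [Bool.and_eq_true] at h
  rw [← Nat.eq_of_beq_eq_true h.2, List.countP_eq_length_filter,
    ← List.toFinset_card_of_nodup (List.nodup_range.filter _), ← Set.ncard_coe_finset,
    ← Set.ncard_image_of_injective S Fin.val_injective]
  refine Set.ncard_le_ncard ?_
  rintro _ ⟨y, hy, rfl⟩
  simp only [List.coe_toFinset, List.mem_filter, List.mem_range, Bool.and_eq_true, Set.mem_ofPred_eq]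
  refine ⟨y.2, mem_maskSet.1 (hS hy), ?_⟩
  rw [← describes, show gperm Data.x5 = x5p from rfl, hf y hy]
  exact Nat.beq_refl _

theorem isPGroup_x5p : IsPGroup 5 (Subgroup.zpowers x5p) := by
  haveI : Fact (Nat.Prime 5) := ⟨by norm_num⟩
  refine IsPGroup.of_card (n := 1) ?_
  rw [Nat.card_zpowers, orderOf_x5p, pow_one]

end CfsgLib.RankThreeMcL
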