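import Cfsg.Agent.Lib.RankThreeMcL.Model
import Cfsg.Agent.Lib.RankThreeRecog.Words

/-!
The McLaughlin group on 275 points as permutations given by tables, for the orbit certificates.
-/

set_option autoImplicit false

namespace CfsgLib.RankThreeMcL

open CfsgLib.SchurMult.McLTwoFive (rep el rep_el)

/-- The tables, padded by the identity. -/
noncomputable def tT (i u : ℕ) : ℕ := bif Nat.blt i 128 then CfsgLib.SchurMult.McLTwoFive.tbl.img i u else u

/-- The permutations of the tables. -/
noncomputable def sg (i : ℕ) : Equiv.Perm (Fin 275) := if i < 128 then rep (el i) else 1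

theorem ts_length : CfsgLib.SchurMult.McLTwoFive.tbl.ts.length = 128 := by decide +kernel

theorem describesT : RankThreeRecog.Describes tT sg := by
  intro i u
  by_cases h : i < 128
  · rw [sg, if_pos h, rep_el (ts_length.symm ▸ h) u, tT,
      show Nat.blt i 128 = true by simpa [Nat.blt_eq] using h, cond_true]
  · rw [sg, if_neg h, tT, show Nat.blt i 128 = false from
      Bool.eq_false_iff.2 fun e => h (by simpa [Nat.blt_eq] using e), cond_false]
    rfl

theorem tT_lt : ∀ i u, u < 275 → tT i u < 275 := fun i u hu => by
  rw [← describesT i ⟨u, hu⟩]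
  exact Fin.isLt _

theorem sg_mem (i : ℕ) : sg i ∈ mclS := by
  unfold sg
  split
  · exact ⟨_, rfl⟩
  · exact one_mem _

theorem sgWord_mem (w : List ℕ) : RankThreeRecog.wperm sg w ∈ mclS :=
  RankThreeRecog.wperm_mem fun i _ => sg_mem i

end CfsgLib.RankThreeMcL
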